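/-
A Chevalley group with trivial centre and a central quotient of an image of Steinberg's group.
-/
import Cfsg.Agent.Lib.St.Pres
import Cfsg.Agent.Lib.Chev.Simple

set_option autoImplicit false

namespace Cfsg.Agent.Lib.PO

open Cfsg Cfsg.Lie Cfsg.Agent.Lib.Chev Cfsg.Agent.Lib.St

variable {K : Type*} [Field K] {D : ChevalleyDatum} {T : Tbl} {wit : ℕ → ℕ × ℕ}

/-- An image of Steinberg's group, modulo its centre, is the Chevalley group, if the latter is simple and the
image is not commutative. -/
theorem iso_of_surj (hG : T.Good3 D) (hW : StHyp T wit) (hperf : commutator ↥(D.group K) = ⊤) {H : Type*} [Group H]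
    (ρ : D.SteinbergGroup K →* H) (hs : Function.Surjective ρ) {a b : H} (hab : a * b ≠ b * a) :
    Nonempty (↥(D.group K) ≃* H ⧸ Subgroup.center H) := by
  set S := canSys (K := K) hG (D.steinbergRels K) Set.subset_union_left (lift_rels hG) with hS
  set q := QuotientGroup.mk' (Subgroup.center H) with hq
  set τ := q.comp ρ with hτ
  have hτs : Function.Surjective τ := (QuotientGroup.mk'_surjective _).comp hs
  have h1 : S.θG.ker ≤ τ.ker := by
    intro z hz
    rw [S.θG_ker] at hz
    have hc := S.ker_le_center hW hz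
    rw [MonoidHom.mem_ker, hτ, MonoidHom.comp_apply, hq, QuotientGroup.mk'_apply, QuotientGroup.eq_one_iff]
    refine Subgroup.mem_center_iff.2 fun g => ?_
    obtain ⟨γ, rfl⟩ := hs g
    rw [← map_mul, ← map_mul, (Subgroup.mem_center_iff.1 hc) γ]
  have hsim := (hG.simple (F := K) hperf).1
  have hnorm : (τ.ker.map S.θG).Normal := Subgroup.Normal.map inferInstance _ S.θG_surj
  have h2 : τ.ker ≤ S.θG.ker := by
    rcases hsim.eq_bot_or_eq_top_of_normal _ hnorm with h | h
    · intro z hz
      rw [MonoidHom.mem_ker]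
      have : S.θG z ∈ τ.ker.map S.θG := ⟨z, hz, rfl⟩
      rw [h] at this
      exact this
    · exfalso
      have htop : ∀ γ, γ ∈ τ.ker := by
        intro γ
        have : S.θG γ ∈ τ.ker.map S.θG := by
          rw [h]
          exact Subgroup.mem_top _
        obtain ⟨n, hn, e⟩ := this
        have hz : n⁻¹ * γ ∈ τ.ker := h1 (by rw [MonoidHom.mem_ker, map_mul, map_inv, e, inv_mul_cancel])
        have e2 : γ = n * (n⁻¹ * γ) := by group
        rw [e2]
        exact mul_mem hn hz
      obtain ⟨γ, rfl⟩ := hs a
      have h3 := htop γ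
      rw [MonoidHom.mem_ker, hτ, MonoidHom.comp_apply, hq, QuotientGroup.mk'_apply, QuotientGroup.eq_one_iff] at h3
      exact hab ((Subgroup.mem_center_iff.1 h3) b).symm
  have hker : S.θG.ker = τ.ker := le_antisymm h1 h2
  exact ⟨(QuotientGroup.quotientKerEquivOfSurjective S.θG S.θG_surj).symm.trans
    ((QuotientGroup.quotientMulEquivOfEq hker).trans (QuotientGroup.quotientKerEquivOfSurjective τ hτs))⟩

end Cfsg.Agent.Lib.PO
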