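/-
The subgroup generated by Siegel transformations of a quadratic space with hyperbolic pairs.
-/
import Cfsg.Agent.Lib.Classical.OrthSiegel

set_option autoImplicit false
set_option linter.unusedSectionVars false

namespace Cfsg.Agent.Lib.PO

open Cfsg.Agent.Lib.Classical.Witt Cfsg.Agent.Lib.Classical.Abs Cfsg.Agent.Lib.Classical.Orth
open scoped commutatorElement

local notation "P" => QuadraticMap.polarBilin

variable {F V : Type*} [Field F] [AddCommGroup V] [Module F V] {Q : QuadraticForm F V}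

/-- The subgroup generated by all Siegel transformations. -/
def EE (Q : QuadraticForm F V) : Subgroup (OG Q) :=
  Subgroup.closure {g | ∃ a w, Q a = 0 ∧ P Q a w = 0 ∧ g = sg Q a w}

lemma sg_mem_EE {a w : V} (ha : Q a = 0) (hw : P Q a w = 0) : sg Q a w ∈ EE Q :=
  Subgroup.subset_closure ⟨a, w, ha, hw, rfl⟩

instance EE_normal : (EE Q).Normal := by
  refine ⟨fun x hx g => ?_⟩
  induction hx using Subgroup.closure_induction with
  | mem x hx =>
    obtain ⟨a, w, ha, hw, rfl⟩ := hx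
    rw [sg_conj ha hw]
    exact sg_mem_EE (by rw [OG_pres, ha]) (by rw [OG_polar, hw])
  | one =>
    have : g * 1 * g⁻¹ = 1 := by group
    rw [this]
    exact one_mem _
  | mul a b _ _ h1 h2 =>
    have : g * (a * b) * g⁻¹ = (g * a * g⁻¹) * (g * b * g⁻¹) := by group
    rw [this]
    exact mul_mem h1 h2
  | inv a _ h =>
    have : g * a⁻¹ * g⁻¹ = (g * a * g⁻¹)⁻¹ := by group
    rw [this]
    exact inv_mem h

/-- The Siegel transformation in the direction of a singular vector. -/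
lemma sg_dir {a b : V} (hb : Q b = 0) (ha : Q a = 0) (hab : P Q a b = 0) (c : F) (y : V) :
    (sg Q a (c • b)).1 y = y + (c * P Q a y) • b - (c * P Q b y) • a := by
  rw [sg_eq_of_sing ha hb hab, smul_smul, smul_smul]

variable {m : ℕ}

/-- A system of hyperbolic pairs. -/
structure HS (Q : QuadraticForm F V) (e f : Fin m → V) : Prop where
  he : ∀ i, Q (e i) = 0
  hf : ∀ i, Q (f i) = 0
  hee : ∀ i j, P Q (e i) (e j) = 0
  hff : ∀ i j, P Q (f i) (f j) = 0
  hef : ∀ i j, P Q (e i) (f j) = if i = j then 1 else 0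
  hZ : ∀ x, Q x = 0 → (∀ i, P Q (e i) x = 0 ∧ P Q (f i) x = 0) → x = 0

variable {e f : Fin m → V}

lemma HS.hfe (hH : HS Q e f) (i j : Fin m) : P Q (f i) (e j) = if i = j then 1 else 0 := by
  rw [pol_comm, hH.hef]
  simp only [eq_comm]

lemma HS.ef_self (hH : HS Q e f) (i : Fin m) : P Q (e i) (f i) = 1 := by
  rw [hH.hef, if_pos rfl]

lemma HS.fe_self (hH : HS Q e f) (i : Fin m) : P Q (f i) (e i) = 1 := by
  rw [hH.hfe, if_pos rfl]

lemma HS.ef_ne (hH : HS Q e f) {i j : Fin m} (h : i ≠ j) : P Q (e i) (f j) = 0 := by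
  rw [hH.hef, if_neg h]

lemma HS.fe_ne (hH : HS Q e f) {i j : Fin m} (h : i ≠ j) : P Q (f i) (e j) = 0 := by
  rw [hH.hfe, if_neg h]

lemma HS.e_ne (hH : HS Q e f) (i : Fin m) : e i ≠ 0 := by
  intro h
  have := hH.ef_self i
  rw [h, map_zero, LinearMap.zero_apply] at this
  exact zero_ne_one this

lemma HS.f_ne (hH : HS Q e f) (i : Fin m) : f i ≠ 0 := by
  intro h
  have := hH.ef_self i
  rw [h, map_zero] at this
  exact zero_ne_one this

/-- The orthogonal complement of the pairs outside `A`. -/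
def WW (Q : QuadraticForm F V) (e f : Fin m → V) (A : Set (Fin m)) : Submodule F V where
  carrier := {x | ∀ i, i ∉ A → P Q (e i) x = 0 ∧ P Q (f i) x = 0}
  add_mem' := by
    intro a b ha hb i hi
    rw [map_add, map_add, (ha i hi).1, (ha i hi).2, (hb i hi).1, (hb i hi).2]
    simp
  zero_mem' := by
    intro i _
    simp
  smul_mem' := by
    intro c x hx i hi
    rw [map_smul, map_smul, (hx i hi).1, (hx i hi).2]
    simp

lemma mem_WW {A : Set (Fin m)} {x : V} : x ∈ WW Q e f A ↔ ∀ i, i ∉ A → P Q (e i) x = 0 ∧ P Q (f i) x = 0 :=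
  Iff.rfl

variable {A : Set (Fin m)}

lemma HS.e_mem (hH : HS Q e f) {i : Fin m} (hi : i ∈ A) : e i ∈ WW Q e f A := by
  intro j hj
  have hne : j ≠ i := fun h => hj (h ▸ hi)
  exact ⟨hH.hee _ _, hH.fe_ne hne⟩

lemma HS.f_mem (hH : HS Q e f) {i : Fin m} (hi : i ∈ A) : f i ∈ WW Q e f A := by
  intro j hj
  have hne : j ≠ i := fun h => hj (h ▸ hi)
  exact ⟨hH.ef_ne hne, hH.hff _ _⟩

/-- The group of Siegel transformations with centres in the pairs of `A`. -/
def EA (Q : QuadraticForm F V) (e f : Fin m → V) (A : Set (Fin m)) : Subgroup (OG Q) :=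
  Subgroup.closure {g | ∃ i ∈ A, ∃ w ∈ WW Q e f A, (P Q (e i) w = 0 ∧ g = sg Q (e i) w) ∨ (P Q (f i) w = 0 ∧ g = sg Q (f i) w)}

lemma sg_e_mem {i : Fin m} (hi : i ∈ A) {w : V} (hw : w ∈ WW Q e f A) (h : P Q (e i) w = 0) : sg Q (e i) w ∈ EA Q e f A :=
  Subgroup.subset_closure ⟨i, hi, w, hw, Or.inl ⟨h, rfl⟩⟩

lemma sg_f_mem {i : Fin m} (hi : i ∈ A) {w : V} (hw : w ∈ WW Q e f A) (h : P Q (f i) w = 0) : sg Q (f i) w ∈ EA Q e f A :=
  Subgroup.subset_closure ⟨i, hi, w, hw, Or.inr ⟨h, rfl⟩⟩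

lemma HS.EA_le_EE (hH : HS Q e f) : EA Q e f A ≤ EE Q := by
  refine (Subgroup.closure_le _).2 ?_
  rintro g ⟨i, _, w, _, ⟨h, rfl⟩ | ⟨h, rfl⟩⟩
  · exact sg_mem_EE (hH.he i) h
  · exact sg_mem_EE (hH.hf i) h

/-- Elements fixing the pairs outside `A`. -/
def Fx (e f : Fin m → V) (A : Set (Fin m)) (g : OG Q) : Prop := ∀ j, j ∉ A → g.1 (e j) = e j ∧ g.1 (f j) = f j

lemma HS.Fx_of_mem (hH : HS Q e f) {g : OG Q} (hg : g ∈ EA Q e f A) : Fx e f A g := by
  induction hg using Subgroup.closure_induction with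
  | mem g hg =>
    obtain ⟨i, hi, w, hw, ⟨h, rfl⟩ | ⟨h, rfl⟩⟩ := hg
    · intro j hj
      have hne : i ≠ j := fun h => hj (h ▸ hi)
      obtain ⟨h1, h2⟩ := hw j hj
      constructor
      · rw [sg_apply (hH.he i) h, hH.hee, pol_comm Q w, h1]
        simp
      · rw [sg_apply (hH.he i) h, hH.ef_ne hne, pol_comm Q w, h2]
        simp
    · intro j hj
      have hne : i ≠ j := fun h => hj (h ▸ hi)
      obtain ⟨h1, h2⟩ := hw j hj
      constructor
      · rw [sg_apply (hH.hf i) h, hH.fe_ne hne, pol_comm Q w, h1]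
        simp
      · rw [sg_apply (hH.hf i) h, hH.hff, pol_comm Q w, h2]
        simp
  | one =>
    intro j _
    exact ⟨rfl, rfl⟩
  | mul a b _ _ h1 h2 =>
    intro j hj
    rw [mul_apply', mul_apply', (h2 j hj).1, (h2 j hj).2]
    exact h1 j hj
  | inv a _ h =>
    intro j hj
    constructor
    · conv_lhs => rw [← (h j hj).1]
      exact inv_apply_self' a _
    · conv_lhs => rw [← (h j hj).2]
      exact inv_apply_self' a _

lemma Fx.map_WW {g : OG Q} (hg : Fx e f A g) {x : V} (hx : x ∈ WW Q e f A) : g.1 x ∈ WW Q e f A := by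
  intro j hj
  have h1 := OG_polar g (e j) x
  have h2 := OG_polar g (f j) x
  rw [(hg j hj).1] at h1
  rw [(hg j hj).2] at h2
  rw [h1, h2]
  exact hx j hj

/-- Scaling a vector of a pair. -/
lemma HS.scale (hH : HS Q e f) {i j : Fin m} (hi : i ∈ A) (hj : j ∈ A) (hij : i ≠ j) {c : F} (hc : c ≠ 0) :
    ∃ h ∈ EA Q e f A, h.1 (c • e i) = e i := by
  have ht1 : P Q (e j) ((-c⁻¹) • f i) = 0 := by rw [map_smul, hH.ef_ne hij.symm, smul_zero]
  have ht2 : P Q (e i) ((c - 1) • f j) = 0 := by rw [map_smul, hH.ef_ne hij, smul_zero]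
  have ht3 : P Q (e j) ((1 : F) • f i) = 0 := by rw [map_smul, hH.ef_ne hij.symm, smul_zero]
  refine ⟨sg Q (e j) ((1 : F) • f i) * sg Q (e i) ((c - 1) • f j) * sg Q (e j) ((-c⁻¹) • f i), ?_, ?_⟩
  · refine mul_mem (mul_mem ?_ ?_) ?_
    · exact sg_e_mem hj (Submodule.smul_mem _ _ (hH.f_mem hi)) ht3
    · exact sg_e_mem hi (Submodule.smul_mem _ _ (hH.f_mem hj)) ht2
    · exact sg_e_mem hj (Submodule.smul_mem _ _ (hH.f_mem hi)) ht1
  · have s1 : (sg Q (e j) ((-c⁻¹) • f i)).1 (c • e i) = c • e i + e j := by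
      rw [sg_dir (hH.hf i) (hH.he j) (hH.ef_ne hij.symm)]
      have e1 : P Q (e j) (c • e i) = 0 := by rw [map_smul, hH.hee, smul_zero]
      have e2 : P Q (f i) (c • e i) = c := by rw [map_smul, hH.fe_self, smul_eq_mul, mul_one]
      rw [e1, e2, mul_zero, zero_smul, add_zero, show -c⁻¹ * c = -1 by rw [neg_mul, inv_mul_cancel₀ hc], neg_smul, one_smul,
        sub_neg_eq_add]
    have s2 : (sg Q (e i) ((c - 1) • f j)).1 (c • e i + e j) = e i + e j := by
      rw [sg_dir (hH.hf j) (hH.he i) (hH.ef_ne hij)]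
      have e3 : P Q (e i) (c • e i + e j) = 0 := by
        rw [map_add, map_smul, hH.hee, hH.hee]
        simp
      have e4 : P Q (f j) (c • e i + e j) = 1 := by
        rw [map_add, map_smul, hH.fe_ne hij.symm, hH.fe_self]
        simp
      rw [e3, e4, mul_zero, zero_smul, add_zero, mul_one]
      (module)
    have s3 : (sg Q (e j) ((1 : F) • f i)).1 (e i + e j) = e i := by
      rw [sg_dir (hH.hf i) (hH.he j) (hH.ef_ne hij.symm)]
      have e5 : P Q (e j) (e i + e j) = 0 := by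
        rw [map_add, hH.hee, hH.hee]
        simp
      have e6 : P Q (f i) (e i + e j) = 1 := by
        rw [map_add, hH.fe_self, hH.fe_ne hij]
        simp
      rw [e5, e6, mul_zero, zero_smul, add_zero, mul_one, one_smul]
      (module)
    rw [mul_apply', mul_apply', s1, s2, s3]

/-- Moving a vector with a non-zero coordinate to a multiple of `e i`. -/
lemma HS.to_e (hH : HS Q e f) {i : Fin m} (hi : i ∈ A) {y : V} (hy : y ∈ WW Q e f A) (hq : Q y = 0)
    (hc : P Q (f i) y ≠ 0) : ∃ h ∈ EA Q e f A, h.1 y = P Q (f i) y • e i := by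
  set c := P Q (f i) y with hcd
  have hd : P Q (f i) (c • e i - y) = 0 := by
    rw [map_sub, map_smul, hH.fe_self, ← hcd]
    simp
  have hxz : Q y = Q (c • e i) := by
    rw [Q_smul, hH.he, mul_zero, hq]
  refine ⟨sg Q (f i) (c⁻¹ • (c • e i - y)), ?_, sg_move (hH.hf i) hd hxz hc⟩
  refine sg_f_mem hi (Submodule.smul_mem _ _ (Submodule.sub_mem _ (Submodule.smul_mem _ _ (hH.e_mem hi)) hy)) ?_
  rw [map_smul, hd, smul_zero]

/-- Getting a non-zero coordinate. -/
lemma HS.exists_coord (hH : HS Q e f) {i j : Fin m} (hi : i ∈ A) (hj : j ∈ A) (hij : i ≠ j) {x : V} (hx : x ∈ WW Q e f A)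
    (h0 : x ≠ 0) (hq : Q x = 0) : ∃ h ∈ EA Q e f A, P Q (f i) (h.1 x) ≠ 0 := by
  by_cases hc : P Q (f i) x = 0
  swap
  · exact ⟨1, one_mem _, hc⟩
  have step : ∀ y ∈ WW Q e f A, P Q (f i) y = 0 → ∀ (l : Fin m), l ∈ A → l ≠ i → ∀ b, (b = e l ∨ b = f l) → P Q b y ≠ 0 →
      ∃ h ∈ EA Q e f A, P Q (f i) (h.1 y) ≠ 0 := by
    intro y _ hy0 l hl hli b hb hby
    have hb0 : Q b = 0 := by
      rcases hb with rfl | rfl
      · exact hH.he l
      · exact hH.hf l
    have hbe : P Q b (e i) = 0 := by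
      rcases hb with rfl | rfl
      · exact hH.hee _ _
      · exact hH.fe_ne hli
    have hfb : P Q (f i) b = 0 := by
      rcases hb with rfl | rfl
      · exact hH.fe_ne hli.symm
      · exact hH.hff _ _
    refine ⟨sg Q b ((1 : F) • e i), ?_, ?_⟩
    · rcases hb with rfl | rfl
      · exact sg_e_mem hl (Submodule.smul_mem _ _ (hH.e_mem hi)) (by rw [map_smul, hbe, smul_zero])
      · exact sg_f_mem hl (Submodule.smul_mem _ _ (hH.e_mem hi)) (by rw [map_smul, hbe, smul_zero])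
    · rw [sg_dir (hH.he i) hb0 hbe, map_sub, map_add, map_smul, map_smul, hy0, hH.fe_self, hfb]
      simpa using hby
  obtain ⟨l, hl⟩ : ∃ l, ¬ (P Q (e l) x = 0 ∧ P Q (f l) x = 0) := by
    by_contra hcon
    push_neg at hcon
    exact h0 (hH.hZ x hq hcon)
  have hlA : l ∈ A := by
    by_contra hn
    exact hl (hx l hn)
  by_cases hli : l = i
  · -- the coordinate is the other one of the pair
    subst hli
    have he0 : P Q (e l) x ≠ 0 := fun h => hl ⟨h, hc⟩
    by_cases hfj : P Q (f j) x = 0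
    · -- first a transformation
      have hee0 : P Q (e l) ((1 : F) • e j) = 0 := by rw [map_smul, hH.hee, smul_zero]
      have hm := sg_e_mem (A := A) (e := e) (f := f) hi (Submodule.smul_mem (WW Q e f A) (1 : F) (hH.e_mem hj)) hee0
      set y := (sg Q (e l) ((1 : F) • e j)).1 x with hy
      have hyW : y ∈ WW Q e f A := (hH.Fx_of_mem hm).map_WW hx
      have hyf : P Q (f j) y ≠ 0 := by
        rw [hy, sg_dir (hH.he j) (hH.he l) (hH.hee _ _), map_sub, map_add, map_smul, map_smul, hfj, hH.fe_self, hH.fe_ne hij.symm]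
        simpa using he0
      by_cases hyi : P Q (f l) y = 0
      · obtain ⟨h, hh, e1⟩ := step y hyW hyi j hj hij.symm (f j) (Or.inr rfl) hyf
        refine ⟨h * sg Q (e l) ((1 : F) • e j), mul_mem hh hm, ?_⟩
        rwa [mul_apply']
      · exact ⟨_, hm, hyi⟩
    · exact step x hx hc j hj hij.symm (f j) (Or.inr rfl) hfj
  · by_cases hel : P Q (e l) x = 0
    · have hfl : P Q (f l) x ≠ 0 := fun h => hl ⟨hel, h⟩
      exact step x hx hc l hlA hli (f l) (Or.inr rfl) hfl
    · exact step x hx hc l hlA hli (e l) (Or.inl rfl) hel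

/-- Transitivity on the non-zero singular vectors. -/
theorem HS.trans (hH : HS Q e f) {i j : Fin m} (hi : i ∈ A) (hj : j ∈ A) (hij : i ≠ j) {x : V} (hx : x ∈ WW Q e f A)
    (h0 : x ≠ 0) (hq : Q x = 0) : ∃ h ∈ EA Q e f A, h.1 x = e i := by
  obtain ⟨h₁, hh₁, e1⟩ := hH.exists_coord hi hj hij hx h0 hq
  have hy := (hH.Fx_of_mem hh₁).map_WW hx
  obtain ⟨h₂, hh₂, e2⟩ := hH.to_e hi hy (by rw [OG_pres, hq]) e1
  obtain ⟨h₃, hh₃, e3⟩ := hH.scale hi hj hij e1
  refine ⟨h₃ * h₂ * h₁, mul_mem (mul_mem hh₃ hh₂) hh₁, ?_⟩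
  rw [mul_apply', mul_apply', e2, e3]

/-- One step of the reduction. -/
theorem HS.step_fix (hH : HS Q e f) {i j : Fin m} (hi : i ∈ A) (hj : j ∈ A) (hij : i ≠ j) {g : OG Q} (hg : Fx e f A g) :
    ∃ h ∈ EA Q e f A, Fx e f (A \ {i}) (h * g) := by
  have hx : g.1 (e i) ∈ WW Q e f A := hg.map_WW (hH.e_mem hi)
  have hy : g.1 (f i) ∈ WW Q e f A := hg.map_WW (hH.f_mem hi)
  have h0 : g.1 (e i) ≠ 0 := by
    intro h
    exact hH.e_ne i (by simpa using g.1.injective (h.trans (map_zero _).symm))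
  obtain ⟨h₁, hh₁, e1⟩ := hH.trans hi hj hij hx h0 (by rw [OG_pres, hH.he])
  have hF₁ := hH.Fx_of_mem hh₁
  set y := h₁.1 (g.1 (f i)) with hyd
  have hyW : y ∈ WW Q e f A := hF₁.map_WW hy
  have hye : P Q (e i) y = 1 := by
    rw [← e1, hyd, OG_polar, OG_polar, hH.ef_self]
  have hd : P Q (e i) (f i - y) = 0 := by
    rw [map_sub, hye, hH.ef_self, sub_self]
  have hq : Q y = Q (f i) := by
    rw [hyd, OG_pres, OG_pres]
  have hmv := sg_move (hH.he i) hd hq (by rw [hye]; exact one_ne_zero)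
  have hd' : P Q (e i) ((P Q (e i) y)⁻¹ • (f i - y)) = 0 := by
    rw [map_smul, hd, smul_zero]
  have hm₂ := sg_e_mem (A := A) (e := e) (f := f) hi (Submodule.smul_mem _ ((P Q (e i) y)⁻¹) (Submodule.sub_mem _ (hH.f_mem hi) hyW)) hd'
  have hfix : (sg Q (e i) ((P Q (e i) y)⁻¹ • (f i - y))).1 (e i) = e i := by
    have e' : P Q ((P Q (e i) y)⁻¹ • (f i - y)) (e i) = 0 := by
      rw [pol_comm]
      exact hd'
    rw [sg_apply (hH.he i) hd', e', hH.hee]
    simp
  refine ⟨_ * h₁, mul_mem hm₂ hh₁, fun l hl => ?_⟩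
  by_cases hlA : l ∈ A
  · have hli : l = i := by
      by_contra hne
      exact hl ⟨hlA, hne⟩
    subst hli
    constructor
    · rw [mul_apply', mul_apply', e1, hfix]
    · rw [mul_apply', mul_apply']
      exact hmv
  · have h2 := hH.Fx_of_mem hm₂ l hlA
    have h3 := hF₁ l hlA
    have h4 := hg l hlA
    constructor
    · rw [mul_apply', mul_apply', h4.1, h3.1, h2.1]
    · rw [mul_apply', mul_apply', h4.2, h3.2, h2.2]

/-- The pairs of index at least `k`. -/
def Ak (m k : ℕ) : Set (Fin m) := {l | k ≤ l.val}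

/-- Reduction to the last pair. -/
theorem HS.exists_last (hH : HS Q e f) : ∀ k, k < m → ∀ g : OG Q, ∃ h ∈ EE Q, Fx e f (Ak m k) (h * g) := by
  intro k
  induction k with
  | zero =>
    intro _ g
    refine ⟨1, one_mem _, fun j hj => absurd (Nat.zero_le _) hj⟩
  | succ k ih =>
    intro hk g
    obtain ⟨h, hh, e1⟩ := ih (by omega) g
    have hi : (⟨k, by omega⟩ : Fin m) ∈ Ak m k := le_refl k
    have hj : (⟨k + 1, hk⟩ : Fin m) ∈ Ak m k := Nat.le_succ k
    obtain ⟨h', hh', e2⟩ := hH.step_fix hi hj (by simp [Fin.ext_iff]) e1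
    refine ⟨h' * h, mul_mem (hH.EA_le_EE hh') hh, ?_⟩
    have hset : Ak m k \ {(⟨k, by omega⟩ : Fin m)} = Ak m (k + 1) := by
      ext l
      simp only [Ak, Set.mem_diff, Set.mem_setOf_eq, Set.mem_singleton_iff, Fin.ext_iff]
      omega
    rw [hset] at e2
    rwa [mul_assoc]

/-- All Siegel transformations are generated by those with centres in the pairs. -/
theorem HS.EE_le_EA (hH : HS Q e f) {i j : Fin m} (hij : i ≠ j) : EE Q ≤ EA Q e f Set.univ := by
  refine (Subgroup.closure_le _).2 ?_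
  rintro g ⟨a, w, ha, hw, rfl⟩
  by_cases h0 : a = 0
  · subst h0
    rw [sg_of_zero]
    exact one_mem _
  have hW : ∀ x, x ∈ WW Q e f Set.univ := fun x l hl => absurd (Set.mem_univ l) hl
  obtain ⟨h, hh, e1⟩ := hH.trans (Set.mem_univ i) (Set.mem_univ j) hij (hW a) h0 ha
  have hw' : P Q (e i) (h.1 w) = 0 := by
    rw [← e1, OG_polar, hw]
  have e2 := sg_conj (hH.he i) hw' h⁻¹
  have e3 : h⁻¹.1 (e i) = a := by
    rw [← e1, inv_apply_self']
  rw [e3, inv_apply_self'] at e2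
  change sg Q a w ∈ (EA Q e f Set.univ : Set _)
  rw [← e2, inv_inv]
  exact mul_mem (mul_mem (inv_mem hh) (sg_e_mem (Set.mem_univ i) (hW _) hw')) hh

end Cfsg.Agent.Lib.PO
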