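/-
The elements `n̄`, `h̄` for Siegel transformations, and the commutator subgroup of the orthogonal group of a hyperbolic space.
-/
import Cfsg.Agent.Lib.PO.Base

set_option autoImplicit false
set_option linter.unusedSectionVars false

namespace Cfsg.Agent.Lib.PO

open Cfsg.Agent.Lib.Classical.Witt Cfsg.Agent.Lib.Classical.Abs Cfsg.Agent.Lib.Classical.Orth
open scoped commutatorElement

local notation "P" => QuadraticMap.polarBilin

variable {F V : Type*} [Field F] [AddCommGroup V] [Module F V] {Q : QuadraticForm F V}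

/-- Two hyperbolic pairs `(a, a')`, `(b, b')`, orthogonal to each other. -/
structure QP (Q : QuadraticForm F V) (a b a' b' : V) : Prop where
  qa : Q a = 0
  qb : Q b = 0
  qa' : Q a' = 0
  qb' : Q b' = 0
  ab : P Q a b = 0
  ab' : P Q a b' = 0
  ba' : P Q b a' = 0
  a'b' : P Q a' b' = 0
  aa' : P Q a a' = 1
  bb' : P Q b b' = 1

/-- The element `n̄`. -/
noncomputable def NN (Q : QuadraticForm F V) (a b a' b' : V) (τ : F) : OG Q :=
  sg Q a (τ • b) * sg Q a' (τ⁻¹ • b') * sg Q a (τ • b)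

/-- The element `h̄`. -/
noncomputable def HH (Q : QuadraticForm F V) (a b a' b' : V) (τ τ' : F) : OG Q :=
  NN Q a b a' b' τ * NN Q a b a' b' τ'

section

variable {a b a' b' : V} (h : QP Q a b a' b') {τ τ' : F}
include h

lemma QP.S1_a : (sg Q a (τ • b)).1 a = a := by
  rw [sg_dir h.qb h.qa h.ab, pol_self_of h.qa, pol_comm Q b a, h.ab]
  simp

lemma QP.S1_b : (sg Q a (τ • b)).1 b = b := by
  rw [sg_dir h.qb h.qa h.ab, h.ab, pol_self_of h.qb]
  simp

lemma QP.S1_a' : (sg Q a (τ • b)).1 a' = a' + τ • b := by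
  rw [sg_dir h.qb h.qa h.ab, h.aa', h.ba']
  simp

lemma QP.S1_b' : (sg Q a (τ • b)).1 b' = b' - τ • a := by
  rw [sg_dir h.qb h.qa h.ab, h.ab', h.bb']
  simp [sub_eq_add_neg]

lemma QP.S2_a : (sg Q a' (τ⁻¹ • b')).1 a = a + τ⁻¹ • b' := by
  rw [sg_dir h.qb' h.qa' h.a'b', pol_comm Q a' a, h.aa', pol_comm Q b' a, h.ab']
  simp

lemma QP.S2_b : (sg Q a' (τ⁻¹ • b')).1 b = b - τ⁻¹ • a' := by
  rw [sg_dir h.qb' h.qa' h.a'b', pol_comm Q a' b, h.ba', pol_comm Q b' b, h.bb']
  simp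

lemma QP.S2_a' : (sg Q a' (τ⁻¹ • b')).1 a' = a' := by
  rw [sg_dir h.qb' h.qa' h.a'b', pol_self_of h.qa', pol_comm Q b' a', h.a'b']
  simp

lemma QP.S2_b' : (sg Q a' (τ⁻¹ • b')).1 b' = b' := by
  rw [sg_dir h.qb' h.qa' h.a'b', h.a'b', pol_self_of h.qb']
  simp

lemma QP.NN_b (hτ : τ ≠ 0) : (NN Q a b a' b' τ).1 b = (-τ⁻¹) • a' := by
  unfold NN
  rw [mul_apply', mul_apply', h.S1_b, h.S2_b, map_sub, map_smul, h.S1_b, h.S1_a', smul_add, smul_smul, inv_mul_cancel₀ hτ]
  simp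

lemma QP.NN_a' (hτ : τ ≠ 0) : (NN Q a b a' b' τ).1 a' = τ • b := by
  unfold NN
  rw [mul_apply', mul_apply', h.S1_a', map_add, map_smul, h.S2_a', h.S2_b, smul_sub, smul_smul, mul_inv_cancel₀ hτ, one_smul,
    show a' + (τ • b - a') = τ • b by abel, map_smul, h.S1_b]

lemma QP.NN_a (hτ : τ ≠ 0) : (NN Q a b a' b' τ).1 a = τ⁻¹ • b' := by
  unfold NN
  rw [mul_apply', mul_apply', h.S1_a, h.S2_a, map_add, map_smul, h.S1_a, h.S1_b', smul_sub, smul_smul, inv_mul_cancel₀ hτ, one_smul,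
    show a + (τ⁻¹ • b' - a) = τ⁻¹ • b' by abel]

lemma QP.NN_b' (hτ : τ ≠ 0) : (NN Q a b a' b' τ).1 b' = (-τ) • a := by
  unfold NN
  rw [mul_apply', mul_apply', h.S1_b', map_sub, map_smul, h.S2_b', h.S2_a, smul_add, smul_smul, mul_inv_cancel₀ hτ, one_smul,
    show b' - (τ • a + b') = (-τ) • a by (module), map_smul, h.S1_a]

lemma QP.NN_fix {y : V} (h1 : P Q a y = 0) (h2 : P Q b y = 0) (h3 : P Q a' y = 0) (h4 : P Q b' y = 0) :
    (NN Q a b a' b' τ).1 y = y := by
  have e1 : ∀ c : F, (sg Q a (c • b)).1 y = y := by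
    intro c
    rw [sg_dir h.qb h.qa h.ab, h1, h2]
    simp
  have e2 : (sg Q a' (τ⁻¹ • b')).1 y = y := by
    rw [sg_dir h.qb' h.qa' h.a'b', h3, h4]
    simp
  unfold NN
  rw [mul_apply', mul_apply', e1, e2, e1]

lemma QP.HH_a (hτ : τ ≠ 0) (hτ' : τ' ≠ 0) : (HH Q a b a' b' τ τ').1 a = (-τ'⁻¹ * τ) • a := by
  unfold HH
  rw [mul_apply', h.NN_a hτ', map_smul, h.NN_b' hτ, smul_smul]
  congr 1
  ring

lemma QP.HH_b (hτ : τ ≠ 0) (hτ' : τ' ≠ 0) : (HH Q a b a' b' τ τ').1 b = (-τ'⁻¹ * τ) • b := by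
  unfold HH
  rw [mul_apply', h.NN_b hτ', map_smul, h.NN_a' hτ, smul_smul]

lemma QP.HH_a' (hτ : τ ≠ 0) (hτ' : τ' ≠ 0) : (HH Q a b a' b' τ τ').1 a' = (-τ'⁻¹ * τ)⁻¹ • a' := by
  unfold HH
  rw [mul_apply', h.NN_a' hτ', map_smul, h.NN_b hτ, smul_smul]
  congr 1
  field_simp

lemma QP.HH_b' (hτ : τ ≠ 0) (hτ' : τ' ≠ 0) : (HH Q a b a' b' τ τ').1 b' = (-τ'⁻¹ * τ)⁻¹ • b' := by
  unfold HH
  rw [mul_apply', h.NN_b' hτ', map_smul, h.NN_a hτ, smul_smul]
  congr 1
  field_simp

lemma QP.HH_fix {y : V} (h1 : P Q a y = 0) (h2 : P Q b y = 0) (h3 : P Q a' y = 0) (h4 : P Q b' y = 0) :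
    (HH Q a b a' b' τ τ').1 y = y := by
  unfold HH
  rw [mul_apply', h.NN_fix h1 h2 h3 h4, h.NN_fix h1 h2 h3 h4]

lemma QP.NN_mem : NN Q a b a' b' τ ∈ EE Q := by
  unfold NN
  have h1 : sg Q a (τ • b) ∈ EE Q := sg_mem_EE h.qa (by rw [map_smul, h.ab, smul_zero])
  have h2 : sg Q a' (τ⁻¹ • b') ∈ EE Q := sg_mem_EE h.qa' (by rw [map_smul, h.a'b', smul_zero])
  exact mul_mem (mul_mem h1 h2) h1

lemma QP.HH_mem : HH Q a b a' b' τ τ' ∈ EE Q := mul_mem h.NN_mem h.NN_mem

end

variable {m : ℕ} {e f : Fin m → V}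

lemma HS.swap (hH : HS Q e f) : HS Q f e where
  he := hH.hf
  hf := hH.he
  hee := hH.hff
  hff := hH.hee
  hef := hH.hfe
  hZ := fun x hq h => hH.hZ x hq fun i => ⟨(h i).2, (h i).1⟩

lemma HS.qp1 (hH : HS Q e f) {i j : Fin m} (hij : i ≠ j) : QP Q (e i) (e j) (f i) (f j) where
  qa := hH.he i
  qb := hH.he j
  qa' := hH.hf i
  qb' := hH.hf j
  ab := hH.hee _ _
  ab' := hH.ef_ne hij
  ba' := hH.ef_ne hij.symm
  a'b' := hH.hff _ _
  aa' := hH.ef_self i
  bb' := hH.ef_self j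

lemma HS.qp2 (hH : HS Q e f) {i j : Fin m} (hij : i ≠ j) : QP Q (e i) (f j) (f i) (e j) where
  qa := hH.he i
  qb := hH.hf j
  qa' := hH.hf i
  qb' := hH.he j
  ab := hH.ef_ne hij
  ab' := hH.hee _ _
  ba' := hH.hff _ _
  a'b' := hH.fe_ne hij
  aa' := hH.ef_self i
  bb' := hH.fe_self j

/-- Spanning. -/
def HS.Sp (e f : Fin m → V) (Q : QuadraticForm F V) : Prop :=
  ∀ x : V, x = ∑ k, (P Q (f k) x • e k + P Q (e k) x • f k)

lemma ext_of_sp (hS : HS.Sp e f Q) {g g' : OG Q} (h : ∀ k, g.1 (e k) = g'.1 (e k) ∧ g.1 (f k) = g'.1 (f k)) : g = g' := by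
  apply OG_ext
  intro x
  rw [hS x, map_sum, map_sum]
  refine Finset.sum_congr rfl fun k _ => ?_
  rw [map_add, map_add, map_smul, map_smul, map_smul, map_smul, (h k).1, (h k).2]

/-- The element scaling the last pair. -/
lemma HS.exists_D (hH : HS Q e f) {l l' : Fin m} (hll : l ≠ l') {c : F} (hc : c ≠ 0) :
    ∃ d ∈ EE Q, d.1 (e l) = (c * c) • e l ∧ d.1 (f l) = (c * c)⁻¹ • f l ∧
      ∀ k, k ≠ l → d.1 (e k) = e k ∧ d.1 (f k) = f k := by
  have h1 := hH.qp1 hll
  have h2 := hH.qp2 hll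
  have hn : (-1 : F) ≠ 0 := neg_ne_zero.2 one_ne_zero
  have ek : (-(-1 : F)⁻¹ * c) = c := by
    rw [inv_neg_one, neg_neg, one_mul]
  refine ⟨HH Q (e l) (e l') (f l) (f l') c (-1) * HH Q (e l) (f l') (f l) (e l') c (-1), mul_mem h1.HH_mem h2.HH_mem, ?_, ?_, ?_⟩
  · rw [mul_apply', h2.HH_a hc hn, map_smul, h1.HH_a hc hn, smul_smul, ek]
  · rw [mul_apply', h2.HH_a' hc hn, map_smul, h1.HH_a' hc hn, smul_smul, ek, mul_inv]
  · intro k hk
    by_cases hkl : k = l'
    · subst hkl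
      constructor
      · rw [mul_apply', h2.HH_b' hc hn, map_smul, h1.HH_b hc hn, smul_smul, ek, inv_mul_cancel₀ hc, one_smul]
      · rw [mul_apply', h2.HH_b hc hn, map_smul, h1.HH_b' hc hn, smul_smul, ek, mul_inv_cancel₀ hc, one_smul]
    · have a1 := hH.hee l k
      have a2 := hH.hee l' k
      have a3 : P Q (f l) (e k) = 0 := hH.fe_ne hk.symm
      have a4 : P Q (f l') (e k) = 0 := hH.fe_ne (Ne.symm hkl)
      have b1 : P Q (e l) (f k) = 0 := hH.ef_ne hk.symm
      have b2 : P Q (e l') (f k) = 0 := hH.ef_ne (Ne.symm hkl)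
      have b3 := hH.hff l k
      have b4 := hH.hff l' k
      constructor
      · rw [mul_apply', h2.HH_fix a1 a4 a3 a2, h1.HH_fix a1 a2 a3 a4]
      · rw [mul_apply', h2.HH_fix b1 b4 b3 b2, h1.HH_fix b1 b2 b3 b4]

/-- The complement of the earlier pairs in the plus type. -/
lemma plane (hS : HS.Sp e f Q) {l : Fin m} {x : V} (hx : ∀ k, k ≠ l → P Q (e k) x = 0 ∧ P Q (f k) x = 0) :
    x = P Q (f l) x • e l + P Q (e l) x • f l := by
  conv_lhs => rw [hS x]
  refine Finset.sum_eq_single l (fun k _ hk => ?_) (fun h => absurd (Finset.mem_univ l) h)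
  rw [(hx k hk).1, (hx k hk).2]
  simp

/-- Squares lie in the group of Siegel transformations for a hyperbolic space. -/
theorem HS.sq_mem_plus (hH : HS Q e f) (hS : HS.Sp e f Q) (hm : 2 ≤ m) (x : OG Q) : x * x ∈ EE Q := by
  have hm1 : m - 1 < m := by omega
  obtain ⟨h, hh, hl⟩ := hH.exists_last (m - 1) hm1 x
  set l := h * x with hld
  set L : Fin m := ⟨m - 1, hm1⟩ with hL
  set L' : Fin m := ⟨0, by omega⟩ with hL'
  have hLL : L ≠ L' := by
    simp only [hL, hL', ne_eq, Fin.mk.injEq]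
    omega
  have hk : ∀ k, k ≠ L → k ∉ Ak m (m - 1) := by
    intro k hk h2
    apply hk
    have h3 : m - 1 ≤ k.val := h2
    exact Fin.ext (by simp only [hL]; omega)
  have hpl : ∀ y, (∀ k, k ≠ L → P Q (e k) y = 0 ∧ P Q (f k) y = 0) → Q y = P Q (f L) y * P Q (e L) y := by
    intro y hy
    have e1 := plane hS hy
    conv_lhs => rw [e1]
    rw [Q_add, Q_smul, Q_smul, hH.he, hH.hf]
    simp only [map_smul, LinearMap.smul_apply, smul_eq_mul, hH.ef_self]
    ring
  have hW : ∀ y, (y = e L ∨ y = f L) → ∀ k, k ≠ L → P Q (e k) (l.1 y) = 0 ∧ P Q (f k) (l.1 y) = 0 := by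
    intro y hy k hkL
    have h1 := hl k (hk k hkL)
    have e1 := OG_polar l (e k) y
    have e2 := OG_polar l (f k) y
    rw [h1.1] at e1
    rw [h1.2] at e2
    rw [e1, e2]
    rcases hy with rfl | rfl
    · exact ⟨hH.hee _ _, hH.fe_ne hkL⟩
    · exact ⟨hH.ef_ne hkL, hH.hff _ _⟩
  set α := P Q (f L) (l.1 (e L)) with hα
  set β := P Q (e L) (l.1 (e L)) with hβ
  set α' := P Q (f L) (l.1 (f L)) with hα'
  set β' := P Q (e L) (l.1 (f L)) with hβ'
  have e1 : l.1 (e L) = α • e L + β • f L := plane hS (hW _ (Or.inl rfl))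
  have e2 : l.1 (f L) = α' • e L + β' • f L := plane hS (hW _ (Or.inr rfl))
  have q1 : α * β = 0 := by
    rw [← hpl _ (hW _ (Or.inl rfl)), OG_pres, hH.he]
  have q2 : α' * β' = 0 := by
    rw [← hpl _ (hW _ (Or.inr rfl)), OG_pres, hH.hf]
  have q3 : α * β' + β * α' = 1 := by
    have h3 := OG_polar l (e L) (f L)
    rw [hH.ef_self, e1] at h3
    conv_lhs at h3 => rw [e2]
    simp only [map_add, map_smul, LinearMap.add_apply, LinearMap.smul_apply, smul_eq_mul, hH.hee, hH.hff, hH.ef_self, hH.fe_self] at h3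
    linear_combination h3
  have hsq : l * l ∈ EE Q := by
    rcases mul_eq_zero.1 q1 with h0 | h0
    · -- `l` exchanges the two vectors
      have hβ0 : β ≠ 0 := by
        intro h1
        rw [h0, h1] at q3
        simp at q3
      have hα0 : α' ≠ 0 := by
        intro h1
        rw [h0, h1] at q3
        simp at q3
      have hb0 : β' = 0 := by
        rcases mul_eq_zero.1 q2 with h1 | h1
        · exact absurd h1 hα0
        · exact h1
      have e3 : l * l = 1 := by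
        refine ext_of_sp hS fun k => ?_
        by_cases hkL : k = L
        · subst hkL
          have r1 : β * α' = 1 := by
            rw [h0] at q3
            simpa using q3
          have r2 : α' * β = 1 := by rw [mul_comm]; exact r1
          constructor
          · rw [mul_apply', e1, h0, zero_smul, zero_add, map_smul, e2, hb0, zero_smul, add_zero, smul_smul, r1, one_smul]
            rfl
          · rw [mul_apply', e2, hb0, zero_smul, add_zero, map_smul, e1, h0, zero_smul, zero_add, smul_smul, r2, one_smul]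
            rfl
        · have h1 := hl k (hk k hkL)
          constructor
          · rw [mul_apply', h1.1, h1.1]
            rfl
          · rw [mul_apply', h1.2, h1.2]
            rfl
      rw [e3]
      exact one_mem _
    · -- `l` scales the two vectors
      have r1 : α * β' = 1 := by
        rw [h0] at q3
        simpa using q3
      have hα0 : α ≠ 0 := left_ne_zero_of_mul_eq_one r1
      have hb0 : β' ≠ 0 := right_ne_zero_of_mul_eq_one r1
      have ha0 : α' = 0 := by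
        rcases mul_eq_zero.1 q2 with h1 | h1
        · exact h1
        · exact absurd h1 hb0
      have r2 : β' = α⁻¹ := eq_inv_of_mul_eq_one_right r1
      obtain ⟨d, hd, d1, d2, d3⟩ := hH.exists_D hLL hα0
      have e3 : l * l = d := by
        refine ext_of_sp hS fun k => ?_
        by_cases hkL : k = L
        · subst hkL
          constructor
          · rw [mul_apply', e1, h0, zero_smul, add_zero, map_smul, e1, h0, zero_smul, add_zero, smul_smul, d1]
          · rw [mul_apply', e2, ha0, zero_smul, zero_add, map_smul, e2, ha0, zero_smul, zero_add, smul_smul, d2, r2, mul_inv]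
        · have h1 := hl k (hk k hkL)
          have h2 := d3 k hkL
          constructor
          · rw [mul_apply', h1.1, h1.1, h2.1]
          · rw [mul_apply', h1.2, h1.2, h2.2]
      rw [e3]
      exact hd
  -- back to `x`
  have hn : (EE Q).Normal := inferInstance
  have e3 : x * x = h⁻¹ * (l * h⁻¹ * l⁻¹) * (l * l) := by
    rw [hld]
    group
  rw [e3]
  exact mul_mem (mul_mem (inv_mem hh) (hn.conj_mem _ (inv_mem hh) l)) hsq

/-- A group in which all squares lie in a normal subgroup has commutators there. -/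
lemma comm_le_of_sq {G : Type*} [Group G] {N : Subgroup G} [hN : N.Normal] (h : ∀ x : G, x * x ∈ N) : commutator G ≤ N := by
  rw [commutator_def, Subgroup.commutator_le]
  intro x _ y _
  have e : ⁅x, y⁆ = ((x * y) * (x * y)) * (y⁻¹ * (x⁻¹ * x⁻¹) * y⁻¹⁻¹) * (y⁻¹ * y⁻¹) := by
    rw [commutatorElement_def]
    group
  rw [e]
  exact mul_mem (mul_mem (h _) (hN.conj_mem _ (h _) _)) (h _)

/-- The commutator subgroup for a hyperbolic space. -/
theorem HS.comm_le_plus (hH : HS Q e f) (hS : HS.Sp e f Q) (hm : 2 ≤ m) : commutator (OG Q) ≤ EE Q :=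
  comm_le_of_sq (hH.sq_mem_plus hS hm)

/-- Sums in the direction of a vector. -/
lemma sg_sum {R : Subgroup (OG Q)} {b : V} (hb : Q b = 0) {κ : Type*} (s : Finset κ) (v : κ → V)
    (h1 : ∀ k ∈ s, P Q b (v k) = 0) (h2 : ∀ k ∈ s, sg Q b (v k) ∈ R) : sg Q b (∑ k ∈ s, v k) ∈ R := by
  classical
  induction s using Finset.induction_on with
  | empty =>
    rw [Finset.sum_empty, sg_zero]
    exact one_mem _
  | insert a s ha ih =>
    rw [Finset.sum_insert ha]
    have e1 : P Q b (∑ k ∈ s, v k) = 0 := by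
      rw [map_sum]
      exact Finset.sum_eq_zero fun k hk => h1 k (Finset.mem_insert_of_mem hk)
    rw [← sg_add hb (h1 a (Finset.mem_insert_self _ _)) e1]
    exact mul_mem (h2 a (Finset.mem_insert_self _ _)) (ih (fun k hk => h1 k (Finset.mem_insert_of_mem hk))
      (fun k hk => h2 k (Finset.mem_insert_of_mem hk)))

/-- The Siegel transformations with centre in a pair from root elements. -/
lemma HS.sg_e_mem_of (hH : HS Q e f) {R : Subgroup (OG Q)} {Z : Set V}
    (hZ : ∀ x, x - ∑ k, (P Q (f k) x • e k + P Q (e k) x • f k) ∈ Z)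
    {i : Fin m} (h1 : ∀ z ∈ Z, P Q (e i) z = 0 → sg Q (e i) z ∈ R)
    (h2 : ∀ k, k ≠ i → ∀ c : F, sg Q (e i) (c • e k) ∈ R) (h3 : ∀ k, k ≠ i → ∀ c : F, sg Q (e i) (c • f k) ∈ R)
    {w : V} (hw : P Q (e i) w = 0) : sg Q (e i) w ∈ R := by
  have hcomp : P Q (e i) (∑ k, (P Q (f k) w • e k + P Q (e k) w • f k)) = 0 := by
    rw [map_sum]
    refine Finset.sum_eq_zero fun k _ => ?_
    rw [map_add, map_smul, map_smul, hH.hee, smul_eq_mul, smul_eq_mul, mul_zero, zero_add]
    by_cases hk : k = i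
    · subst hk
      rw [hw, zero_mul]
    · rw [hH.ef_ne (Ne.symm hk), mul_zero]
  have hz : P Q (e i) (w - ∑ k, (P Q (f k) w • e k + P Q (e k) w • f k)) = 0 := by
    rw [map_sub, hw, hcomp, sub_zero]
  have e1 : w = (w - ∑ k, (P Q (f k) w • e k + P Q (e k) w • f k)) + ∑ k, (P Q (f k) w • e k + P Q (e k) w • f k) := by
    abel
  rw [e1, ← sg_add (hH.he i) hz hcomp]
  refine mul_mem (h1 _ (hZ w) hz) (sg_sum (hH.he i) _ _ (fun k _ => ?_) (fun k _ => ?_))
  · rw [map_add, map_smul, map_smul, hH.hee, smul_eq_mul, smul_eq_mul, mul_zero, zero_add]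
    by_cases hk : k = i
    · subst hk
      rw [hw, zero_mul]
    · rw [hH.ef_ne (Ne.symm hk), mul_zero]
  · have a1 : P Q (e i) (P Q (f k) w • e k) = 0 := by rw [map_smul, hH.hee, smul_zero]
    have a2 : P Q (e i) (P Q (e k) w • f k) = 0 := by
      rw [map_smul, smul_eq_mul]
      by_cases hk : k = i
      · subst hk
        rw [hw, zero_mul]
      · rw [hH.ef_ne (Ne.symm hk), mul_zero]
    rw [← sg_add (hH.he i) a1 a2]
    refine mul_mem ?_ ?_
    · by_cases hk : k = i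
      · subst hk
        rw [sg_self_smul (hH.he k)]
        exact one_mem _
      · exact h2 k hk _
    · by_cases hk : k = i
      · subst hk
        rw [hw, zero_smul, sg_zero]
        exact one_mem _
      · exact h3 k hk _

/-- The group generated by Siegel transformations from root elements. -/
theorem HS.EA_le_of (hH : HS Q e f) {R : Subgroup (OG Q)} {Z : Set V}
    (hZ : ∀ x, x - ∑ k, (P Q (f k) x • e k + P Q (e k) x • f k) ∈ Z)
    (h1 : ∀ i, ∀ z ∈ Z, P Q (e i) z = 0 → sg Q (e i) z ∈ R)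
    (h1' : ∀ i, ∀ z ∈ Z, P Q (f i) z = 0 → sg Q (f i) z ∈ R)
    (h2 : ∀ i k, k ≠ i → ∀ c : F, sg Q (e i) (c • e k) ∈ R) (h3 : ∀ i k, k ≠ i → ∀ c : F, sg Q (e i) (c • f k) ∈ R)
    (h2' : ∀ i k, k ≠ i → ∀ c : F, sg Q (f i) (c • e k) ∈ R) (h3' : ∀ i k, k ≠ i → ∀ c : F, sg Q (f i) (c • f k) ∈ R)
    {A : Set (Fin m)} : EA Q e f A ≤ R := by
  refine (Subgroup.closure_le _).2 ?_
  rintro g ⟨i, _, w, _, ⟨h, rfl⟩ | ⟨h, rfl⟩⟩
  · exact hH.sg_e_mem_of hZ (h1 i) (h2 i) (h3 i) h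
  · refine hH.swap.sg_e_mem_of (fun x => ?_) (h1' i) (h3' i) (h2' i) h
    have e : (∑ k, (P Q (e k) x • f k + P Q (f k) x • e k)) = ∑ k, (P Q (f k) x • e k + P Q (e k) x • f k) :=
      Finset.sum_congr rfl fun k _ => add_comm _ _
    rw [e]
    exact hZ x

end Cfsg.Agent.Lib.PO
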