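/-
The natural representation of Steinberg's group of type B₂ on the five dimensional quadratic space.
-/
import Cfsg.Agent.Lib.PO.Iso
import Cfsg.Agent.Lib.PO.Plus
import Cfsg.Agent.Lib.St.Perf
import Cfsg.Agent.Lib.Known3.OmegaCalc

set_option autoImplicit false
set_option linter.unusedSectionVars false

namespace Cfsg.Agent.Lib.PO

open Cfsg Cfsg.Lie Cfsg.Agent.Lib.Chev Cfsg.Agent.Lib.St
open Cfsg.Agent.Lib.Classical.Witt Cfsg.Agent.Lib.Classical.Abs Cfsg.Agent.Lib.Classical.Orth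
open Cfsg.Agent.Lib.Known3.OmegaCalc
open scoped commutatorElement

local notation "P" => QuadraticMap.polarBilin

variable {F : Type*} [Field F]

/-- The five dimensional space. -/
abbrev VB (F : Type*) [Field F] := Unit ⊕ (Fin 2 ⊕ Fin 2) → F

/-- A vector by its coordinates. -/
def vv (z a0 a1 b0 b1 : F) : VB F := Sum.elim (fun _ => z) (Sum.elim ![a0, a1] ![b0, b1])

lemma vv_eta (x : VB F) : x = vv (x (Sum.inl ())) (x (Sum.inr (Sum.inl 0))) (x (Sum.inr (Sum.inl 1)))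
    (x (Sum.inr (Sum.inr 0))) (x (Sum.inr (Sum.inr 1))) := by
  funext p
  rcases p with ⟨⟩ | i | i
  · rfl
  · fin_cases i <;> rfl
  · fin_cases i <;> rfl

lemma vv_surj (x : VB F) : ∃ z a0 a1 b0 b1, x = vv z a0 a1 b0 b1 := ⟨_, _, _, _, _, vv_eta x⟩

lemma vv_congr {z a0 a1 b0 b1 z' a0' a1' b0' b1' : F} (h1 : z = z') (h2 : a0 = a0') (h3 : a1 = a1') (h4 : b0 = b0') (h5 : b1 = b1') :
    vv z a0 a1 b0 b1 = vv z' a0' a1' b0' b1' := by
  rw [h1, h2, h3, h4, h5]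

lemma vv_inj {z a0 a1 b0 b1 z' a0' a1' b0' b1' : F} (h : vv z a0 a1 b0 b1 = vv z' a0' a1' b0' b1') :
    z = z' ∧ a0 = a0' ∧ a1 = a1' ∧ b0 = b0' ∧ b1 = b1' :=
  ⟨congrFun h (Sum.inl ()), congrFun h (Sum.inr (Sum.inl 0)), congrFun h (Sum.inr (Sum.inl 1)),
    congrFun h (Sum.inr (Sum.inr 0)), congrFun h (Sum.inr (Sum.inr 1))⟩

lemma vv_add (z a0 a1 b0 b1 z' a0' a1' b0' b1' : F) :
    vv z a0 a1 b0 b1 + vv z' a0' a1' b0' b1' = vv (z + z') (a0 + a0') (a1 + a1') (b0 + b0') (b1 + b1') := by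
  funext p
  rcases p with ⟨⟩ | i | i
  · rfl
  · fin_cases i <;> rfl
  · fin_cases i <;> rfl

lemma vv_sub (z a0 a1 b0 b1 z' a0' a1' b0' b1' : F) :
    vv z a0 a1 b0 b1 - vv z' a0' a1' b0' b1' = vv (z - z') (a0 - a0') (a1 - a1') (b0 - b0') (b1 - b1') := by
  funext p
  rcases p with ⟨⟩ | i | i
  · rfl
  · fin_cases i <;> rfl
  · fin_cases i <;> rfl

lemma vv_smul (c z a0 a1 b0 b1 : F) :
    c • vv z a0 a1 b0 b1 = vv (c * z) (c * a0) (c * a1) (c * b0) (c * b1) := by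
  funext p
  rcases p with ⟨⟩ | i | i
  · rfl
  · fin_cases i <;> rfl
  · fin_cases i <;> rfl

lemma P_vv (z a0 a1 b0 b1 z' a0' a1' b0' b1' : F) :
    P (Qodd 2 F) (vv z a0 a1 b0 b1) (vv z' a0' a1' b0' b1') =
      2 * z * z' + (a0 * b0' + b0 * a0') + (a1 * b1' + b1 * a1') := by
  rw [polar_Qodd, Fin.sum_univ_two, ← add_assoc]
  rfl

lemma Q_vv (z a0 a1 b0 b1 : F) :
    Qodd 2 F (vv z a0 a1 b0 b1) = z ^ 2 + a0 * b0 + a1 * b1 := by
  rw [Qodd_apply]
  unfold Cfsg.quadFormOdd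
  rw [Fin.sum_univ_two]
  simp [vv, add_assoc]

/-- The five basis vectors. -/
def zB (F : Type*) [Field F] : VB F := vv 1 0 0 0 0
def e0B (F : Type*) [Field F] : VB F := vv 0 1 0 0 0
def e1B (F : Type*) [Field F] : VB F := vv 0 0 1 0 0
def f0B (F : Type*) [Field F] : VB F := vv 0 0 0 1 0
def f1B (F : Type*) [Field F] : VB F := vv 0 0 0 0 1

/-- The root elements. -/
noncomputable def xb (F : Type*) [Field F] : ℕ → F → OG (Qodd 2 F)
  | 0, t => sg (Qodd 2 F) (f0B F) (t • f1B F)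
  | 1, t => sg (Qodd 2 F) (f0B F) (t • zB F)
  | 2, t => sg (Qodd 2 F) (f1B F) (t • zB F)
  | 3, t => sg (Qodd 2 F) (f0B F) (t • e1B F)
  | 4, t => sg (Qodd 2 F) (e0B F) ((-t) • f1B F)
  | 5, t => sg (Qodd 2 F) (e1B F) ((-t) • zB F)
  | 6, t => sg (Qodd 2 F) (e0B F) ((-t) • zB F)
  | _, t => sg (Qodd 2 F) (e0B F) ((-t) • e1B F)

lemma xb0_apply (t z a0 a1 b0 b1 : F) : (xb F 0 t).1 (vv z a0 a1 b0 b1) = vv z a0 a1 (b0 - t * a1) (b1 + t * a0) := by
  have ha : Qodd 2 F (f0B F) = 0 := by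
    unfold f0B
    rw [Q_vv]
    ring
  have hw : P (Qodd 2 F) (f0B F) (t • f1B F) = 0 := by
    unfold f0B f1B
    rw [vv_smul, P_vv]
    ring
  show (sg (Qodd 2 F) (f0B F) (t • f1B F)).1 _ = _
  rw [sg_apply ha hw]
  unfold f0B f1B
  simp only [vv_smul, P_vv, Q_vv, vv_add, vv_sub]
  refine vv_congr ?_ ?_ ?_ ?_ ?_ <;> ring

lemma xb1_apply (t z a0 a1 b0 b1 : F) : (xb F 1 t).1 (vv z a0 a1 b0 b1) = vv (z + t * a0) a0 a1 (b0 - 2 * t * z - t ^ 2 * a0) b1 := by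
  have ha : Qodd 2 F (f0B F) = 0 := by
    unfold f0B
    rw [Q_vv]
    ring
  have hw : P (Qodd 2 F) (f0B F) (t • zB F) = 0 := by
    unfold f0B zB
    rw [vv_smul, P_vv]
    ring
  show (sg (Qodd 2 F) (f0B F) (t • zB F)).1 _ = _
  rw [sg_apply ha hw]
  unfold f0B zB
  simp only [vv_smul, P_vv, Q_vv, vv_add, vv_sub]
  refine vv_congr ?_ ?_ ?_ ?_ ?_ <;> ring

lemma xb2_apply (t z a0 a1 b0 b1 : F) : (xb F 2 t).1 (vv z a0 a1 b0 b1) = vv (z + t * a1) a0 a1 b0 (b1 - 2 * t * z - t ^ 2 * a1) := by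
  have ha : Qodd 2 F (f1B F) = 0 := by
    unfold f1B
    rw [Q_vv]
    ring
  have hw : P (Qodd 2 F) (f1B F) (t • zB F) = 0 := by
    unfold f1B zB
    rw [vv_smul, P_vv]
    ring
  show (sg (Qodd 2 F) (f1B F) (t • zB F)).1 _ = _
  rw [sg_apply ha hw]
  unfold f1B zB
  simp only [vv_smul, P_vv, Q_vv, vv_add, vv_sub]
  refine vv_congr ?_ ?_ ?_ ?_ ?_ <;> ring

lemma xb3_apply (t z a0 a1 b0 b1 : F) : (xb F 3 t).1 (vv z a0 a1 b0 b1) = vv z a0 (a1 + t * a0) (b0 - t * b1) b1 := by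
  have ha : Qodd 2 F (f0B F) = 0 := by
    unfold f0B
    rw [Q_vv]
    ring
  have hw : P (Qodd 2 F) (f0B F) (t • e1B F) = 0 := by
    unfold f0B e1B
    rw [vv_smul, P_vv]
    ring
  show (sg (Qodd 2 F) (f0B F) (t • e1B F)).1 _ = _
  rw [sg_apply ha hw]
  unfold f0B e1B
  simp only [vv_smul, P_vv, Q_vv, vv_add, vv_sub]
  refine vv_congr ?_ ?_ ?_ ?_ ?_ <;> ring

lemma xb4_apply (t z a0 a1 b0 b1 : F) : (xb F 4 t).1 (vv z a0 a1 b0 b1) = vv z (a0 + t * a1) a1 b0 (b1 - t * b0) := by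
  have ha : Qodd 2 F (e0B F) = 0 := by
    unfold e0B
    rw [Q_vv]
    ring
  have hw : P (Qodd 2 F) (e0B F) ((-t) • f1B F) = 0 := by
    unfold e0B f1B
    rw [vv_smul, P_vv]
    ring
  show (sg (Qodd 2 F) (e0B F) ((-t) • f1B F)).1 _ = _
  rw [sg_apply ha hw]
  unfold e0B f1B
  simp only [vv_smul, P_vv, Q_vv, vv_add, vv_sub]
  refine vv_congr ?_ ?_ ?_ ?_ ?_ <;> ring

lemma xb5_apply (t z a0 a1 b0 b1 : F) : (xb F 5 t).1 (vv z a0 a1 b0 b1) = vv (z - t * b1) a0 (a1 + 2 * t * z - t ^ 2 * b1) b0 b1 := by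
  have ha : Qodd 2 F (e1B F) = 0 := by
    unfold e1B
    rw [Q_vv]
    ring
  have hw : P (Qodd 2 F) (e1B F) ((-t) • zB F) = 0 := by
    unfold e1B zB
    rw [vv_smul, P_vv]
    ring
  show (sg (Qodd 2 F) (e1B F) ((-t) • zB F)).1 _ = _
  rw [sg_apply ha hw]
  unfold e1B zB
  simp only [vv_smul, P_vv, Q_vv, vv_add, vv_sub]
  refine vv_congr ?_ ?_ ?_ ?_ ?_ <;> ring

lemma xb6_apply (t z a0 a1 b0 b1 : F) : (xb F 6 t).1 (vv z a0 a1 b0 b1) = vv (z - t * b0) (a0 + 2 * t * z - t ^ 2 * b0) a1 b0 b1 := by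
  have ha : Qodd 2 F (e0B F) = 0 := by
    unfold e0B
    rw [Q_vv]
    ring
  have hw : P (Qodd 2 F) (e0B F) ((-t) • zB F) = 0 := by
    unfold e0B zB
    rw [vv_smul, P_vv]
    ring
  show (sg (Qodd 2 F) (e0B F) ((-t) • zB F)).1 _ = _
  rw [sg_apply ha hw]
  unfold e0B zB
  simp only [vv_smul, P_vv, Q_vv, vv_add, vv_sub]
  refine vv_congr ?_ ?_ ?_ ?_ ?_ <;> ring

lemma xb7_apply (t z a0 a1 b0 b1 : F) : (xb F 7 t).1 (vv z a0 a1 b0 b1) = vv z (a0 + t * b1) (a1 - t * b0) b0 b1 := by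
  have ha : Qodd 2 F (e0B F) = 0 := by
    unfold e0B
    rw [Q_vv]
    ring
  have hw : P (Qodd 2 F) (e0B F) ((-t) • e1B F) = 0 := by
    unfold e0B e1B
    rw [vv_smul, P_vv]
    ring
  show (sg (Qodd 2 F) (e0B F) ((-t) • e1B F)).1 _ = _
  rw [sg_apply ha hw]
  unfold e0B e1B
  simp only [vv_smul, P_vv, Q_vv, vv_add, vv_sub]
  refine vv_congr ?_ ?_ ?_ ?_ ?_ <;> ring

lemma xb_add {r : ℕ} (hr : r < 8) (t u : F) : xb F r t * xb F r u = xb F r (t + u) := by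
  apply OG_ext
  intro x
  obtain ⟨z, a0, a1, b0, b1, rfl⟩ := vv_surj x
  rw [mul_apply']
  interval_cases r <;>
  simp only [xb0_apply, xb1_apply, xb2_apply, xb3_apply, xb4_apply, xb5_apply, xb6_apply, xb7_apply] <;>
  refine vv_congr ?_ ?_ ?_ ?_ ?_ <;> ring

lemma xb_zero {r : ℕ} (hr : r < 8) : xb F r 0 = 1 := by
  have := xb_add hr (0 : F) 0
  rw [add_zero] at this
  exact mul_eq_left.1 this

lemma xb_inv {r : ℕ} (hr : r < 8) (t : F) : (xb F r t)⁻¹ = xb F r (-t) := by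
  rw [inv_eq_iff_mul_eq_one, xb_add hr, add_neg_cancel, xb_zero hr]

/-- The word of the commutator terms. -/
noncomputable def wB (F : Type*) [Field F] (L : List (ℕ × ℤ × ℕ × ℕ)) (t u : F) : OG (Qodd 2 F) :=
  (L.map fun c => xb F c.1 ((c.2.1 : F) * (-t) ^ c.2.2.1 * u ^ c.2.2.2)).prod

lemma cb_0_1 (t u : F) : (xb F 1 u)⁻¹ * (xb F 0 t)⁻¹ * xb F 1 u * xb F 0 t = wB F (digB2.tbl.commF 0 1) t u := by
  have e : digB2.tbl.commF 0 1 = [] := by decide +kernel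
  rw [e, xb_inv (by norm_num : 1 < 8), xb_inv (by norm_num : 0 < 8)]
  apply OG_ext
  intro x
  obtain ⟨z, a0, a1, b0, b1, rfl⟩ := vv_surj x
  simp only [wB, List.map_cons, List.map_nil, List.prod_cons, List.prod_nil, mul_one, mul_apply', one_apply', Int.cast_one, Int.cast_neg,
    Int.cast_ofNat, xb0_apply, xb1_apply, xb2_apply, xb3_apply, xb4_apply, xb5_apply, xb6_apply, xb7_apply]
  refine vv_congr ?_ ?_ ?_ ?_ ?_ <;> ring

lemma cb_0_2 (t u : F) : (xb F 2 u)⁻¹ * (xb F 0 t)⁻¹ * xb F 2 u * xb F 0 t = wB F (digB2.tbl.commF 0 2) t u := by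
  have e : digB2.tbl.commF 0 2 = [] := by decide +kernel
  rw [e, xb_inv (by norm_num : 2 < 8), xb_inv (by norm_num : 0 < 8)]
  apply OG_ext
  intro x
  obtain ⟨z, a0, a1, b0, b1, rfl⟩ := vv_surj x
  simp only [wB, List.map_cons, List.map_nil, List.prod_cons, List.prod_nil, mul_one, mul_apply', one_apply', Int.cast_one, Int.cast_neg,
    Int.cast_ofNat, xb0_apply, xb1_apply, xb2_apply, xb3_apply, xb4_apply, xb5_apply, xb6_apply, xb7_apply]
  refine vv_congr ?_ ?_ ?_ ?_ ?_ <;> ring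

lemma cb_0_3 (t u : F) : (xb F 3 u)⁻¹ * (xb F 0 t)⁻¹ * xb F 3 u * xb F 0 t = wB F (digB2.tbl.commF 0 3) t u := by
  have e : digB2.tbl.commF 0 3 = [] := by decide +kernel
  rw [e, xb_inv (by norm_num : 3 < 8), xb_inv (by norm_num : 0 < 8)]
  apply OG_ext
  intro x
  obtain ⟨z, a0, a1, b0, b1, rfl⟩ := vv_surj x
  simp only [wB, List.map_cons, List.map_nil, List.prod_cons, List.prod_nil, mul_one, mul_apply', one_apply', Int.cast_one, Int.cast_neg,
    Int.cast_ofNat, xb0_apply, xb1_apply, xb2_apply, xb3_apply, xb4_apply, xb5_apply, xb6_apply, xb7_apply]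
  refine vv_congr ?_ ?_ ?_ ?_ ?_ <;> ring

lemma cb_0_4 (t u : F) : (xb F 4 u)⁻¹ * (xb F 0 t)⁻¹ * xb F 4 u * xb F 0 t = wB F (digB2.tbl.commF 0 4) t u := by
  have e : digB2.tbl.commF 0 4 = [] := by decide +kernel
  rw [e, xb_inv (by norm_num : 4 < 8), xb_inv (by norm_num : 0 < 8)]
  apply OG_ext
  intro x
  obtain ⟨z, a0, a1, b0, b1, rfl⟩ := vv_surj x
  simp only [wB, List.map_cons, List.map_nil, List.prod_cons, List.prod_nil, mul_one, mul_apply', one_apply', Int.cast_one, Int.cast_neg,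
    Int.cast_ofNat, xb0_apply, xb1_apply, xb2_apply, xb3_apply, xb4_apply, xb5_apply, xb6_apply, xb7_apply]
  refine vv_congr ?_ ?_ ?_ ?_ ?_ <;> ring

lemma cb_0_5 (t u : F) : (xb F 5 u)⁻¹ * (xb F 0 t)⁻¹ * xb F 5 u * xb F 0 t = wB F (digB2.tbl.commF 0 5) t u := by
  have e : digB2.tbl.commF 0 5 = [(1, 1, 1, 1), (3, -1, 1, 2)] := by decide +kernel
  rw [e, xb_inv (by norm_num : 5 < 8), xb_inv (by norm_num : 0 < 8)]
  apply OG_ext
  intro x
  obtain ⟨z, a0, a1, b0, b1, rfl⟩ := vv_surj x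
  simp only [wB, List.map_cons, List.map_nil, List.prod_cons, List.prod_nil, mul_one, mul_apply', one_apply', Int.cast_one, Int.cast_neg,
    Int.cast_ofNat, xb0_apply, xb1_apply, xb2_apply, xb3_apply, xb4_apply, xb5_apply, xb6_apply, xb7_apply]
  refine vv_congr ?_ ?_ ?_ ?_ ?_ <;> ring

lemma cb_0_6 (t u : F) : (xb F 6 u)⁻¹ * (xb F 0 t)⁻¹ * xb F 6 u * xb F 0 t = wB F (digB2.tbl.commF 0 6) t u := by
  have e : digB2.tbl.commF 0 6 = [(2, -1, 1, 1), (4, 1, 1, 2)] := by decide +kernel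
  rw [e, xb_inv (by norm_num : 6 < 8), xb_inv (by norm_num : 0 < 8)]
  apply OG_ext
  intro x
  obtain ⟨z, a0, a1, b0, b1, rfl⟩ := vv_surj x
  simp only [wB, List.map_cons, List.map_nil, List.prod_cons, List.prod_nil, mul_one, mul_apply', one_apply', Int.cast_one, Int.cast_neg,
    Int.cast_ofNat, xb0_apply, xb1_apply, xb2_apply, xb3_apply, xb4_apply, xb5_apply, xb6_apply, xb7_apply]
  refine vv_congr ?_ ?_ ?_ ?_ ?_ <;> ring

lemma cb_1_0 (t u : F) : (xb F 0 u)⁻¹ * (xb F 1 t)⁻¹ * xb F 0 u * xb F 1 t = wB F (digB2.tbl.commF 1 0) t u := by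
  have e : digB2.tbl.commF 1 0 = [] := by decide +kernel
  rw [e, xb_inv (by norm_num : 0 < 8), xb_inv (by norm_num : 1 < 8)]
  apply OG_ext
  intro x
  obtain ⟨z, a0, a1, b0, b1, rfl⟩ := vv_surj x
  simp only [wB, List.map_cons, List.map_nil, List.prod_cons, List.prod_nil, mul_one, mul_apply', one_apply', Int.cast_one, Int.cast_neg,
    Int.cast_ofNat, xb0_apply, xb1_apply, xb2_apply, xb3_apply, xb4_apply, xb5_apply, xb6_apply, xb7_apply]
  refine vv_congr ?_ ?_ ?_ ?_ ?_ <;> ring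

lemma cb_1_2 (t u : F) : (xb F 2 u)⁻¹ * (xb F 1 t)⁻¹ * xb F 2 u * xb F 1 t = wB F (digB2.tbl.commF 1 2) t u := by
  have e : digB2.tbl.commF 1 2 = [(0, 2, 1, 1)] := by decide +kernel
  rw [e, xb_inv (by norm_num : 2 < 8), xb_inv (by norm_num : 1 < 8)]
  apply OG_ext
  intro x
  obtain ⟨z, a0, a1, b0, b1, rfl⟩ := vv_surj x
  simp only [wB, List.map_cons, List.map_nil, List.prod_cons, List.prod_nil, mul_one, mul_apply', one_apply', Int.cast_one, Int.cast_neg,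
    Int.cast_ofNat, xb0_apply, xb1_apply, xb2_apply, xb3_apply, xb4_apply, xb5_apply, xb6_apply, xb7_apply]
  refine vv_congr ?_ ?_ ?_ ?_ ?_ <;> ring

lemma cb_1_3 (t u : F) : (xb F 3 u)⁻¹ * (xb F 1 t)⁻¹ * xb F 3 u * xb F 1 t = wB F (digB2.tbl.commF 1 3) t u := by
  have e : digB2.tbl.commF 1 3 = [] := by decide +kernel
  rw [e, xb_inv (by norm_num : 3 < 8), xb_inv (by norm_num : 1 < 8)]
  apply OG_ext
  intro x
  obtain ⟨z, a0, a1, b0, b1, rfl⟩ := vv_surj x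
  simp only [wB, List.map_cons, List.map_nil, List.prod_cons, List.prod_nil, mul_one, mul_apply', one_apply', Int.cast_one, Int.cast_neg,
    Int.cast_ofNat, xb0_apply, xb1_apply, xb2_apply, xb3_apply, xb4_apply, xb5_apply, xb6_apply, xb7_apply]
  refine vv_congr ?_ ?_ ?_ ?_ ?_ <;> ring

lemma cb_1_4 (t u : F) : (xb F 4 u)⁻¹ * (xb F 1 t)⁻¹ * xb F 4 u * xb F 1 t = wB F (digB2.tbl.commF 1 4) t u := by
  have e : digB2.tbl.commF 1 4 = [(2, 1, 1, 1), (0, 1, 2, 1)] := by decide +kernel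
  rw [e, xb_inv (by norm_num : 4 < 8), xb_inv (by norm_num : 1 < 8)]
  apply OG_ext
  intro x
  obtain ⟨z, a0, a1, b0, b1, rfl⟩ := vv_surj x
  simp only [wB, List.map_cons, List.map_nil, List.prod_cons, List.prod_nil, mul_one, mul_apply', one_apply', Int.cast_one, Int.cast_neg,
    Int.cast_ofNat, xb0_apply, xb1_apply, xb2_apply, xb3_apply, xb4_apply, xb5_apply, xb6_apply, xb7_apply]
  refine vv_congr ?_ ?_ ?_ ?_ ?_ <;> ring

lemma cb_1_5 (t u : F) : (xb F 5 u)⁻¹ * (xb F 1 t)⁻¹ * xb F 5 u * xb F 1 t = wB F (digB2.tbl.commF 1 5) t u := by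
  have e : digB2.tbl.commF 1 5 = [(3, -2, 1, 1)] := by decide +kernel
  rw [e, xb_inv (by norm_num : 5 < 8), xb_inv (by norm_num : 1 < 8)]
  apply OG_ext
  intro x
  obtain ⟨z, a0, a1, b0, b1, rfl⟩ := vv_surj x
  simp only [wB, List.map_cons, List.map_nil, List.prod_cons, List.prod_nil, mul_one, mul_apply', one_apply', Int.cast_one, Int.cast_neg,
    Int.cast_ofNat, xb0_apply, xb1_apply, xb2_apply, xb3_apply, xb4_apply, xb5_apply, xb6_apply, xb7_apply]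
  refine vv_congr ?_ ?_ ?_ ?_ ?_ <;> ring

lemma cb_1_7 (t u : F) : (xb F 7 u)⁻¹ * (xb F 1 t)⁻¹ * xb F 7 u * xb F 1 t = wB F (digB2.tbl.commF 1 7) t u := by
  have e : digB2.tbl.commF 1 7 = [(5, -1, 1, 1), (3, 1, 2, 1)] := by decide +kernel
  rw [e, xb_inv (by norm_num : 7 < 8), xb_inv (by norm_num : 1 < 8)]
  apply OG_ext
  intro x
  obtain ⟨z, a0, a1, b0, b1, rfl⟩ := vv_surj x
  simp only [wB, List.map_cons, List.map_nil, List.prod_cons, List.prod_nil, mul_one, mul_apply', one_apply', Int.cast_one, Int.cast_neg,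
    Int.cast_ofNat, xb0_apply, xb1_apply, xb2_apply, xb3_apply, xb4_apply, xb5_apply, xb6_apply, xb7_apply]
  refine vv_congr ?_ ?_ ?_ ?_ ?_ <;> ring

lemma cb_2_0 (t u : F) : (xb F 0 u)⁻¹ * (xb F 2 t)⁻¹ * xb F 0 u * xb F 2 t = wB F (digB2.tbl.commF 2 0) t u := by
  have e : digB2.tbl.commF 2 0 = [] := by decide +kernel
  rw [e, xb_inv (by norm_num : 0 < 8), xb_inv (by norm_num : 2 < 8)]
  apply OG_ext
  intro x
  obtain ⟨z, a0, a1, b0, b1, rfl⟩ := vv_surj x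
  simp only [wB, List.map_cons, List.map_nil, List.prod_cons, List.prod_nil, mul_one, mul_apply', one_apply', Int.cast_one, Int.cast_neg,
    Int.cast_ofNat, xb0_apply, xb1_apply, xb2_apply, xb3_apply, xb4_apply, xb5_apply, xb6_apply, xb7_apply]
  refine vv_congr ?_ ?_ ?_ ?_ ?_ <;> ring

lemma cb_2_1 (t u : F) : (xb F 1 u)⁻¹ * (xb F 2 t)⁻¹ * xb F 1 u * xb F 2 t = wB F (digB2.tbl.commF 2 1) t u := by
  have e : digB2.tbl.commF 2 1 = [(0, -2, 1, 1)] := by decide +kernel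
  rw [e, xb_inv (by norm_num : 1 < 8), xb_inv (by norm_num : 2 < 8)]
  apply OG_ext
  intro x
  obtain ⟨z, a0, a1, b0, b1, rfl⟩ := vv_surj x
  simp only [wB, List.map_cons, List.map_nil, List.prod_cons, List.prod_nil, mul_one, mul_apply', one_apply', Int.cast_one, Int.cast_neg,
    Int.cast_ofNat, xb0_apply, xb1_apply, xb2_apply, xb3_apply, xb4_apply, xb5_apply, xb6_apply, xb7_apply]
  refine vv_congr ?_ ?_ ?_ ?_ ?_ <;> ring

lemma cb_2_3 (t u : F) : (xb F 3 u)⁻¹ * (xb F 2 t)⁻¹ * xb F 3 u * xb F 2 t = wB F (digB2.tbl.commF 2 3) t u := by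
  have e : digB2.tbl.commF 2 3 = [(1, 1, 1, 1), (0, -1, 2, 1)] := by decide +kernel
  rw [e, xb_inv (by norm_num : 3 < 8), xb_inv (by norm_num : 2 < 8)]
  apply OG_ext
  intro x
  obtain ⟨z, a0, a1, b0, b1, rfl⟩ := vv_surj x
  simp only [wB, List.map_cons, List.map_nil, List.prod_cons, List.prod_nil, mul_one, mul_apply', one_apply', Int.cast_one, Int.cast_neg,
    Int.cast_ofNat, xb0_apply, xb1_apply, xb2_apply, xb3_apply, xb4_apply, xb5_apply, xb6_apply, xb7_apply]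
  refine vv_congr ?_ ?_ ?_ ?_ ?_ <;> ring

lemma cb_2_4 (t u : F) : (xb F 4 u)⁻¹ * (xb F 2 t)⁻¹ * xb F 4 u * xb F 2 t = wB F (digB2.tbl.commF 2 4) t u := by
  have e : digB2.tbl.commF 2 4 = [] := by decide +kernel
  rw [e, xb_inv (by norm_num : 4 < 8), xb_inv (by norm_num : 2 < 8)]
  apply OG_ext
  intro x
  obtain ⟨z, a0, a1, b0, b1, rfl⟩ := vv_surj x
  simp only [wB, List.map_cons, List.map_nil, List.prod_cons, List.prod_nil, mul_one, mul_apply', one_apply', Int.cast_one, Int.cast_neg,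
    Int.cast_ofNat, xb0_apply, xb1_apply, xb2_apply, xb3_apply, xb4_apply, xb5_apply, xb6_apply, xb7_apply]
  refine vv_congr ?_ ?_ ?_ ?_ ?_ <;> ring

lemma cb_2_6 (t u : F) : (xb F 6 u)⁻¹ * (xb F 2 t)⁻¹ * xb F 6 u * xb F 2 t = wB F (digB2.tbl.commF 2 6) t u := by
  have e : digB2.tbl.commF 2 6 = [(4, -2, 1, 1)] := by decide +kernel
  rw [e, xb_inv (by norm_num : 6 < 8), xb_inv (by norm_num : 2 < 8)]
  apply OG_ext
  intro x
  obtain ⟨z, a0, a1, b0, b1, rfl⟩ := vv_surj x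
  simp only [wB, List.map_cons, List.map_nil, List.prod_cons, List.prod_nil, mul_one, mul_apply', one_apply', Int.cast_one, Int.cast_neg,
    Int.cast_ofNat, xb0_apply, xb1_apply, xb2_apply, xb3_apply, xb4_apply, xb5_apply, xb6_apply, xb7_apply]
  refine vv_congr ?_ ?_ ?_ ?_ ?_ <;> ring

lemma cb_2_7 (t u : F) : (xb F 7 u)⁻¹ * (xb F 2 t)⁻¹ * xb F 7 u * xb F 2 t = wB F (digB2.tbl.commF 2 7) t u := by
  have e : digB2.tbl.commF 2 7 = [(6, 1, 1, 1), (4, -1, 2, 1)] := by decide +kernel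
  rw [e, xb_inv (by norm_num : 7 < 8), xb_inv (by norm_num : 2 < 8)]
  apply OG_ext
  intro x
  obtain ⟨z, a0, a1, b0, b1, rfl⟩ := vv_surj x
  simp only [wB, List.map_cons, List.map_nil, List.prod_cons, List.prod_nil, mul_one, mul_apply', one_apply', Int.cast_one, Int.cast_neg,
    Int.cast_ofNat, xb0_apply, xb1_apply, xb2_apply, xb3_apply, xb4_apply, xb5_apply, xb6_apply, xb7_apply]
  refine vv_congr ?_ ?_ ?_ ?_ ?_ <;> ring

lemma cb_3_0 (t u : F) : (xb F 0 u)⁻¹ * (xb F 3 t)⁻¹ * xb F 0 u * xb F 3 t = wB F (digB2.tbl.commF 3 0) t u := by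
  have e : digB2.tbl.commF 3 0 = [] := by decide +kernel
  rw [e, xb_inv (by norm_num : 0 < 8), xb_inv (by norm_num : 3 < 8)]
  apply OG_ext
  intro x
  obtain ⟨z, a0, a1, b0, b1, rfl⟩ := vv_surj x
  simp only [wB, List.map_cons, List.map_nil, List.prod_cons, List.prod_nil, mul_one, mul_apply', one_apply', Int.cast_one, Int.cast_neg,
    Int.cast_ofNat, xb0_apply, xb1_apply, xb2_apply, xb3_apply, xb4_apply, xb5_apply, xb6_apply, xb7_apply]
  refine vv_congr ?_ ?_ ?_ ?_ ?_ <;> ring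

lemma cb_3_1 (t u : F) : (xb F 1 u)⁻¹ * (xb F 3 t)⁻¹ * xb F 1 u * xb F 3 t = wB F (digB2.tbl.commF 3 1) t u := by
  have e : digB2.tbl.commF 3 1 = [] := by decide +kernel
  rw [e, xb_inv (by norm_num : 1 < 8), xb_inv (by norm_num : 3 < 8)]
  apply OG_ext
  intro x
  obtain ⟨z, a0, a1, b0, b1, rfl⟩ := vv_surj x
  simp only [wB, List.map_cons, List.map_nil, List.prod_cons, List.prod_nil, mul_one, mul_apply', one_apply', Int.cast_one, Int.cast_neg,
    Int.cast_ofNat, xb0_apply, xb1_apply, xb2_apply, xb3_apply, xb4_apply, xb5_apply, xb6_apply, xb7_apply]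
  refine vv_congr ?_ ?_ ?_ ?_ ?_ <;> ring

lemma cb_3_2 (t u : F) : (xb F 2 u)⁻¹ * (xb F 3 t)⁻¹ * xb F 2 u * xb F 3 t = wB F (digB2.tbl.commF 3 2) t u := by
  have e : digB2.tbl.commF 3 2 = [(1, -1, 1, 1), (0, -1, 1, 2)] := by decide +kernel
  rw [e, xb_inv (by norm_num : 2 < 8), xb_inv (by norm_num : 3 < 8)]
  apply OG_ext
  intro x
  obtain ⟨z, a0, a1, b0, b1, rfl⟩ := vv_surj x
  simp only [wB, List.map_cons, List.map_nil, List.prod_cons, List.prod_nil, mul_one, mul_apply', one_apply', Int.cast_one, Int.cast_neg,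
    Int.cast_ofNat, xb0_apply, xb1_apply, xb2_apply, xb3_apply, xb4_apply, xb5_apply, xb6_apply, xb7_apply]
  refine vv_congr ?_ ?_ ?_ ?_ ?_ <;> ring

lemma cb_3_5 (t u : F) : (xb F 5 u)⁻¹ * (xb F 3 t)⁻¹ * xb F 5 u * xb F 3 t = wB F (digB2.tbl.commF 3 5) t u := by
  have e : digB2.tbl.commF 3 5 = [] := by decide +kernel
  rw [e, xb_inv (by norm_num : 5 < 8), xb_inv (by norm_num : 3 < 8)]
  apply OG_ext
  intro x
  obtain ⟨z, a0, a1, b0, b1, rfl⟩ := vv_surj x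
  simp only [wB, List.map_cons, List.map_nil, List.prod_cons, List.prod_nil, mul_one, mul_apply', one_apply', Int.cast_one, Int.cast_neg,
    Int.cast_ofNat, xb0_apply, xb1_apply, xb2_apply, xb3_apply, xb4_apply, xb5_apply, xb6_apply, xb7_apply]
  refine vv_congr ?_ ?_ ?_ ?_ ?_ <;> ring

lemma cb_3_6 (t u : F) : (xb F 6 u)⁻¹ * (xb F 3 t)⁻¹ * xb F 6 u * xb F 3 t = wB F (digB2.tbl.commF 3 6) t u := by
  have e : digB2.tbl.commF 3 6 = [(5, 1, 1, 1), (7, 1, 1, 2)] := by decide +kernel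
  rw [e, xb_inv (by norm_num : 6 < 8), xb_inv (by norm_num : 3 < 8)]
  apply OG_ext
  intro x
  obtain ⟨z, a0, a1, b0, b1, rfl⟩ := vv_surj x
  simp only [wB, List.map_cons, List.map_nil, List.prod_cons, List.prod_nil, mul_one, mul_apply', one_apply', Int.cast_one, Int.cast_neg,
    Int.cast_ofNat, xb0_apply, xb1_apply, xb2_apply, xb3_apply, xb4_apply, xb5_apply, xb6_apply, xb7_apply]
  refine vv_congr ?_ ?_ ?_ ?_ ?_ <;> ring

lemma cb_3_7 (t u : F) : (xb F 7 u)⁻¹ * (xb F 3 t)⁻¹ * xb F 7 u * xb F 3 t = wB F (digB2.tbl.commF 3 7) t u := by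
  have e : digB2.tbl.commF 3 7 = [] := by decide +kernel
  rw [e, xb_inv (by norm_num : 7 < 8), xb_inv (by norm_num : 3 < 8)]
  apply OG_ext
  intro x
  obtain ⟨z, a0, a1, b0, b1, rfl⟩ := vv_surj x
  simp only [wB, List.map_cons, List.map_nil, List.prod_cons, List.prod_nil, mul_one, mul_apply', one_apply', Int.cast_one, Int.cast_neg,
    Int.cast_ofNat, xb0_apply, xb1_apply, xb2_apply, xb3_apply, xb4_apply, xb5_apply, xb6_apply, xb7_apply]
  refine vv_congr ?_ ?_ ?_ ?_ ?_ <;> ring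

lemma cb_4_0 (t u : F) : (xb F 0 u)⁻¹ * (xb F 4 t)⁻¹ * xb F 0 u * xb F 4 t = wB F (digB2.tbl.commF 4 0) t u := by
  have e : digB2.tbl.commF 4 0 = [] := by decide +kernel
  rw [e, xb_inv (by norm_num : 0 < 8), xb_inv (by norm_num : 4 < 8)]
  apply OG_ext
  intro x
  obtain ⟨z, a0, a1, b0, b1, rfl⟩ := vv_surj x
  simp only [wB, List.map_cons, List.map_nil, List.prod_cons, List.prod_nil, mul_one, mul_apply', one_apply', Int.cast_one, Int.cast_neg,
    Int.cast_ofNat, xb0_apply, xb1_apply, xb2_apply, xb3_apply, xb4_apply, xb5_apply, xb6_apply, xb7_apply]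
  refine vv_congr ?_ ?_ ?_ ?_ ?_ <;> ring

lemma cb_4_1 (t u : F) : (xb F 1 u)⁻¹ * (xb F 4 t)⁻¹ * xb F 1 u * xb F 4 t = wB F (digB2.tbl.commF 4 1) t u := by
  have e : digB2.tbl.commF 4 1 = [(2, -1, 1, 1), (0, 1, 1, 2)] := by decide +kernel
  rw [e, xb_inv (by norm_num : 1 < 8), xb_inv (by norm_num : 4 < 8)]
  apply OG_ext
  intro x
  obtain ⟨z, a0, a1, b0, b1, rfl⟩ := vv_surj x
  simp only [wB, List.map_cons, List.map_nil, List.prod_cons, List.prod_nil, mul_one, mul_apply', one_apply', Int.cast_one, Int.cast_neg,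
    Int.cast_ofNat, xb0_apply, xb1_apply, xb2_apply, xb3_apply, xb4_apply, xb5_apply, xb6_apply, xb7_apply]
  refine vv_congr ?_ ?_ ?_ ?_ ?_ <;> ring

lemma cb_4_2 (t u : F) : (xb F 2 u)⁻¹ * (xb F 4 t)⁻¹ * xb F 2 u * xb F 4 t = wB F (digB2.tbl.commF 4 2) t u := by
  have e : digB2.tbl.commF 4 2 = [] := by decide +kernel
  rw [e, xb_inv (by norm_num : 2 < 8), xb_inv (by norm_num : 4 < 8)]
  apply OG_ext
  intro x
  obtain ⟨z, a0, a1, b0, b1, rfl⟩ := vv_surj x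
  simp only [wB, List.map_cons, List.map_nil, List.prod_cons, List.prod_nil, mul_one, mul_apply', one_apply', Int.cast_one, Int.cast_neg,
    Int.cast_ofNat, xb0_apply, xb1_apply, xb2_apply, xb3_apply, xb4_apply, xb5_apply, xb6_apply, xb7_apply]
  refine vv_congr ?_ ?_ ?_ ?_ ?_ <;> ring

lemma cb_4_5 (t u : F) : (xb F 5 u)⁻¹ * (xb F 4 t)⁻¹ * xb F 5 u * xb F 4 t = wB F (digB2.tbl.commF 4 5) t u := by
  have e : digB2.tbl.commF 4 5 = [(6, 1, 1, 1), (7, -1, 1, 2)] := by decide +kernel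
  rw [e, xb_inv (by norm_num : 5 < 8), xb_inv (by norm_num : 4 < 8)]
  apply OG_ext
  intro x
  obtain ⟨z, a0, a1, b0, b1, rfl⟩ := vv_surj x
  simp only [wB, List.map_cons, List.map_nil, List.prod_cons, List.prod_nil, mul_one, mul_apply', one_apply', Int.cast_one, Int.cast_neg,
    Int.cast_ofNat, xb0_apply, xb1_apply, xb2_apply, xb3_apply, xb4_apply, xb5_apply, xb6_apply, xb7_apply]
  refine vv_congr ?_ ?_ ?_ ?_ ?_ <;> ring

lemma cb_4_6 (t u : F) : (xb F 6 u)⁻¹ * (xb F 4 t)⁻¹ * xb F 6 u * xb F 4 t = wB F (digB2.tbl.commF 4 6) t u := by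
  have e : digB2.tbl.commF 4 6 = [] := by decide +kernel
  rw [e, xb_inv (by norm_num : 6 < 8), xb_inv (by norm_num : 4 < 8)]
  apply OG_ext
  intro x
  obtain ⟨z, a0, a1, b0, b1, rfl⟩ := vv_surj x
  simp only [wB, List.map_cons, List.map_nil, List.prod_cons, List.prod_nil, mul_one, mul_apply', one_apply', Int.cast_one, Int.cast_neg,
    Int.cast_ofNat, xb0_apply, xb1_apply, xb2_apply, xb3_apply, xb4_apply, xb5_apply, xb6_apply, xb7_apply]
  refine vv_congr ?_ ?_ ?_ ?_ ?_ <;> ring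

lemma cb_4_7 (t u : F) : (xb F 7 u)⁻¹ * (xb F 4 t)⁻¹ * xb F 7 u * xb F 4 t = wB F (digB2.tbl.commF 4 7) t u := by
  have e : digB2.tbl.commF 4 7 = [] := by decide +kernel
  rw [e, xb_inv (by norm_num : 7 < 8), xb_inv (by norm_num : 4 < 8)]
  apply OG_ext
  intro x
  obtain ⟨z, a0, a1, b0, b1, rfl⟩ := vv_surj x
  simp only [wB, List.map_cons, List.map_nil, List.prod_cons, List.prod_nil, mul_one, mul_apply', one_apply', Int.cast_one, Int.cast_neg,
    Int.cast_ofNat, xb0_apply, xb1_apply, xb2_apply, xb3_apply, xb4_apply, xb5_apply, xb6_apply, xb7_apply]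
  refine vv_congr ?_ ?_ ?_ ?_ ?_ <;> ring

lemma cb_5_0 (t u : F) : (xb F 0 u)⁻¹ * (xb F 5 t)⁻¹ * xb F 0 u * xb F 5 t = wB F (digB2.tbl.commF 5 0) t u := by
  have e : digB2.tbl.commF 5 0 = [(1, -1, 1, 1), (3, -1, 2, 1)] := by decide +kernel
  rw [e, xb_inv (by norm_num : 0 < 8), xb_inv (by norm_num : 5 < 8)]
  apply OG_ext
  intro x
  obtain ⟨z, a0, a1, b0, b1, rfl⟩ := vv_surj x
  simp only [wB, List.map_cons, List.map_nil, List.prod_cons, List.prod_nil, mul_one, mul_apply', one_apply', Int.cast_one, Int.cast_neg,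
    Int.cast_ofNat, xb0_apply, xb1_apply, xb2_apply, xb3_apply, xb4_apply, xb5_apply, xb6_apply, xb7_apply]
  refine vv_congr ?_ ?_ ?_ ?_ ?_ <;> ring

lemma cb_5_1 (t u : F) : (xb F 1 u)⁻¹ * (xb F 5 t)⁻¹ * xb F 1 u * xb F 5 t = wB F (digB2.tbl.commF 5 1) t u := by
  have e : digB2.tbl.commF 5 1 = [(3, 2, 1, 1)] := by decide +kernel
  rw [e, xb_inv (by norm_num : 1 < 8), xb_inv (by norm_num : 5 < 8)]
  apply OG_ext
  intro x
  obtain ⟨z, a0, a1, b0, b1, rfl⟩ := vv_surj x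
  simp only [wB, List.map_cons, List.map_nil, List.prod_cons, List.prod_nil, mul_one, mul_apply', one_apply', Int.cast_one, Int.cast_neg,
    Int.cast_ofNat, xb0_apply, xb1_apply, xb2_apply, xb3_apply, xb4_apply, xb5_apply, xb6_apply, xb7_apply]
  refine vv_congr ?_ ?_ ?_ ?_ ?_ <;> ring

lemma cb_5_3 (t u : F) : (xb F 3 u)⁻¹ * (xb F 5 t)⁻¹ * xb F 3 u * xb F 5 t = wB F (digB2.tbl.commF 5 3) t u := by
  have e : digB2.tbl.commF 5 3 = [] := by decide +kernel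
  rw [e, xb_inv (by norm_num : 3 < 8), xb_inv (by norm_num : 5 < 8)]
  apply OG_ext
  intro x
  obtain ⟨z, a0, a1, b0, b1, rfl⟩ := vv_surj x
  simp only [wB, List.map_cons, List.map_nil, List.prod_cons, List.prod_nil, mul_one, mul_apply', one_apply', Int.cast_one, Int.cast_neg,
    Int.cast_ofNat, xb0_apply, xb1_apply, xb2_apply, xb3_apply, xb4_apply, xb5_apply, xb6_apply, xb7_apply]
  refine vv_congr ?_ ?_ ?_ ?_ ?_ <;> ring

lemma cb_5_4 (t u : F) : (xb F 4 u)⁻¹ * (xb F 5 t)⁻¹ * xb F 4 u * xb F 5 t = wB F (digB2.tbl.commF 5 4) t u := by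
  have e : digB2.tbl.commF 5 4 = [(6, -1, 1, 1), (7, -1, 2, 1)] := by decide +kernel
  rw [e, xb_inv (by norm_num : 4 < 8), xb_inv (by norm_num : 5 < 8)]
  apply OG_ext
  intro x
  obtain ⟨z, a0, a1, b0, b1, rfl⟩ := vv_surj x
  simp only [wB, List.map_cons, List.map_nil, List.prod_cons, List.prod_nil, mul_one, mul_apply', one_apply', Int.cast_one, Int.cast_neg,
    Int.cast_ofNat, xb0_apply, xb1_apply, xb2_apply, xb3_apply, xb4_apply, xb5_apply, xb6_apply, xb7_apply]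
  refine vv_congr ?_ ?_ ?_ ?_ ?_ <;> ring

lemma cb_5_6 (t u : F) : (xb F 6 u)⁻¹ * (xb F 5 t)⁻¹ * xb F 6 u * xb F 5 t = wB F (digB2.tbl.commF 5 6) t u := by
  have e : digB2.tbl.commF 5 6 = [(7, 2, 1, 1)] := by decide +kernel
  rw [e, xb_inv (by norm_num : 6 < 8), xb_inv (by norm_num : 5 < 8)]
  apply OG_ext
  intro x
  obtain ⟨z, a0, a1, b0, b1, rfl⟩ := vv_surj x
  simp only [wB, List.map_cons, List.map_nil, List.prod_cons, List.prod_nil, mul_one, mul_apply', one_apply', Int.cast_one, Int.cast_neg,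
    Int.cast_ofNat, xb0_apply, xb1_apply, xb2_apply, xb3_apply, xb4_apply, xb5_apply, xb6_apply, xb7_apply]
  refine vv_congr ?_ ?_ ?_ ?_ ?_ <;> ring

lemma cb_5_7 (t u : F) : (xb F 7 u)⁻¹ * (xb F 5 t)⁻¹ * xb F 7 u * xb F 5 t = wB F (digB2.tbl.commF 5 7) t u := by
  have e : digB2.tbl.commF 5 7 = [] := by decide +kernel
  rw [e, xb_inv (by norm_num : 7 < 8), xb_inv (by norm_num : 5 < 8)]
  apply OG_ext
  intro x
  obtain ⟨z, a0, a1, b0, b1, rfl⟩ := vv_surj x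
  simp only [wB, List.map_cons, List.map_nil, List.prod_cons, List.prod_nil, mul_one, mul_apply', one_apply', Int.cast_one, Int.cast_neg,
    Int.cast_ofNat, xb0_apply, xb1_apply, xb2_apply, xb3_apply, xb4_apply, xb5_apply, xb6_apply, xb7_apply]
  refine vv_congr ?_ ?_ ?_ ?_ ?_ <;> ring

lemma cb_6_0 (t u : F) : (xb F 0 u)⁻¹ * (xb F 6 t)⁻¹ * xb F 0 u * xb F 6 t = wB F (digB2.tbl.commF 6 0) t u := by
  have e : digB2.tbl.commF 6 0 = [(2, 1, 1, 1), (4, 1, 2, 1)] := by decide +kernel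
  rw [e, xb_inv (by norm_num : 0 < 8), xb_inv (by norm_num : 6 < 8)]
  apply OG_ext
  intro x
  obtain ⟨z, a0, a1, b0, b1, rfl⟩ := vv_surj x
  simp only [wB, List.map_cons, List.map_nil, List.prod_cons, List.prod_nil, mul_one, mul_apply', one_apply', Int.cast_one, Int.cast_neg,
    Int.cast_ofNat, xb0_apply, xb1_apply, xb2_apply, xb3_apply, xb4_apply, xb5_apply, xb6_apply, xb7_apply]
  refine vv_congr ?_ ?_ ?_ ?_ ?_ <;> ring

lemma cb_6_2 (t u : F) : (xb F 2 u)⁻¹ * (xb F 6 t)⁻¹ * xb F 2 u * xb F 6 t = wB F (digB2.tbl.commF 6 2) t u := by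
  have e : digB2.tbl.commF 6 2 = [(4, 2, 1, 1)] := by decide +kernel
  rw [e, xb_inv (by norm_num : 2 < 8), xb_inv (by norm_num : 6 < 8)]
  apply OG_ext
  intro x
  obtain ⟨z, a0, a1, b0, b1, rfl⟩ := vv_surj x
  simp only [wB, List.map_cons, List.map_nil, List.prod_cons, List.prod_nil, mul_one, mul_apply', one_apply', Int.cast_one, Int.cast_neg,
    Int.cast_ofNat, xb0_apply, xb1_apply, xb2_apply, xb3_apply, xb4_apply, xb5_apply, xb6_apply, xb7_apply]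
  refine vv_congr ?_ ?_ ?_ ?_ ?_ <;> ring

lemma cb_6_3 (t u : F) : (xb F 3 u)⁻¹ * (xb F 6 t)⁻¹ * xb F 3 u * xb F 6 t = wB F (digB2.tbl.commF 6 3) t u := by
  have e : digB2.tbl.commF 6 3 = [(5, -1, 1, 1), (7, 1, 2, 1)] := by decide +kernel
  rw [e, xb_inv (by norm_num : 3 < 8), xb_inv (by norm_num : 6 < 8)]
  apply OG_ext
  intro x
  obtain ⟨z, a0, a1, b0, b1, rfl⟩ := vv_surj x
  simp only [wB, List.map_cons, List.map_nil, List.prod_cons, List.prod_nil, mul_one, mul_apply', one_apply', Int.cast_one, Int.cast_neg,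
    Int.cast_ofNat, xb0_apply, xb1_apply, xb2_apply, xb3_apply, xb4_apply, xb5_apply, xb6_apply, xb7_apply]
  refine vv_congr ?_ ?_ ?_ ?_ ?_ <;> ring

lemma cb_6_4 (t u : F) : (xb F 4 u)⁻¹ * (xb F 6 t)⁻¹ * xb F 4 u * xb F 6 t = wB F (digB2.tbl.commF 6 4) t u := by
  have e : digB2.tbl.commF 6 4 = [] := by decide +kernel
  rw [e, xb_inv (by norm_num : 4 < 8), xb_inv (by norm_num : 6 < 8)]
  apply OG_ext
  intro x
  obtain ⟨z, a0, a1, b0, b1, rfl⟩ := vv_surj x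
  simp only [wB, List.map_cons, List.map_nil, List.prod_cons, List.prod_nil, mul_one, mul_apply', one_apply', Int.cast_one, Int.cast_neg,
    Int.cast_ofNat, xb0_apply, xb1_apply, xb2_apply, xb3_apply, xb4_apply, xb5_apply, xb6_apply, xb7_apply]
  refine vv_congr ?_ ?_ ?_ ?_ ?_ <;> ring

lemma cb_6_5 (t u : F) : (xb F 5 u)⁻¹ * (xb F 6 t)⁻¹ * xb F 5 u * xb F 6 t = wB F (digB2.tbl.commF 6 5) t u := by
  have e : digB2.tbl.commF 6 5 = [(7, -2, 1, 1)] := by decide +kernel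
  rw [e, xb_inv (by norm_num : 5 < 8), xb_inv (by norm_num : 6 < 8)]
  apply OG_ext
  intro x
  obtain ⟨z, a0, a1, b0, b1, rfl⟩ := vv_surj x
  simp only [wB, List.map_cons, List.map_nil, List.prod_cons, List.prod_nil, mul_one, mul_apply', one_apply', Int.cast_one, Int.cast_neg,
    Int.cast_ofNat, xb0_apply, xb1_apply, xb2_apply, xb3_apply, xb4_apply, xb5_apply, xb6_apply, xb7_apply]
  refine vv_congr ?_ ?_ ?_ ?_ ?_ <;> ring

lemma cb_6_7 (t u : F) : (xb F 7 u)⁻¹ * (xb F 6 t)⁻¹ * xb F 7 u * xb F 6 t = wB F (digB2.tbl.commF 6 7) t u := by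
  have e : digB2.tbl.commF 6 7 = [] := by decide +kernel
  rw [e, xb_inv (by norm_num : 7 < 8), xb_inv (by norm_num : 6 < 8)]
  apply OG_ext
  intro x
  obtain ⟨z, a0, a1, b0, b1, rfl⟩ := vv_surj x
  simp only [wB, List.map_cons, List.map_nil, List.prod_cons, List.prod_nil, mul_one, mul_apply', one_apply', Int.cast_one, Int.cast_neg,
    Int.cast_ofNat, xb0_apply, xb1_apply, xb2_apply, xb3_apply, xb4_apply, xb5_apply, xb6_apply, xb7_apply]
  refine vv_congr ?_ ?_ ?_ ?_ ?_ <;> ring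

lemma cb_7_1 (t u : F) : (xb F 1 u)⁻¹ * (xb F 7 t)⁻¹ * xb F 1 u * xb F 7 t = wB F (digB2.tbl.commF 7 1) t u := by
  have e : digB2.tbl.commF 7 1 = [(5, 1, 1, 1), (3, 1, 1, 2)] := by decide +kernel
  rw [e, xb_inv (by norm_num : 1 < 8), xb_inv (by norm_num : 7 < 8)]
  apply OG_ext
  intro x
  obtain ⟨z, a0, a1, b0, b1, rfl⟩ := vv_surj x
  simp only [wB, List.map_cons, List.map_nil, List.prod_cons, List.prod_nil, mul_one, mul_apply', one_apply', Int.cast_one, Int.cast_neg,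
    Int.cast_ofNat, xb0_apply, xb1_apply, xb2_apply, xb3_apply, xb4_apply, xb5_apply, xb6_apply, xb7_apply]
  refine vv_congr ?_ ?_ ?_ ?_ ?_ <;> ring

lemma cb_7_2 (t u : F) : (xb F 2 u)⁻¹ * (xb F 7 t)⁻¹ * xb F 2 u * xb F 7 t = wB F (digB2.tbl.commF 7 2) t u := by
  have e : digB2.tbl.commF 7 2 = [(6, -1, 1, 1), (4, -1, 1, 2)] := by decide +kernel
  rw [e, xb_inv (by norm_num : 2 < 8), xb_inv (by norm_num : 7 < 8)]
  apply OG_ext
  intro x
  obtain ⟨z, a0, a1, b0, b1, rfl⟩ := vv_surj x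
  simp only [wB, List.map_cons, List.map_nil, List.prod_cons, List.prod_nil, mul_one, mul_apply', one_apply', Int.cast_one, Int.cast_neg,
    Int.cast_ofNat, xb0_apply, xb1_apply, xb2_apply, xb3_apply, xb4_apply, xb5_apply, xb6_apply, xb7_apply]
  refine vv_congr ?_ ?_ ?_ ?_ ?_ <;> ring

lemma cb_7_3 (t u : F) : (xb F 3 u)⁻¹ * (xb F 7 t)⁻¹ * xb F 3 u * xb F 7 t = wB F (digB2.tbl.commF 7 3) t u := by
  have e : digB2.tbl.commF 7 3 = [] := by decide +kernel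
  rw [e, xb_inv (by norm_num : 3 < 8), xb_inv (by norm_num : 7 < 8)]
  apply OG_ext
  intro x
  obtain ⟨z, a0, a1, b0, b1, rfl⟩ := vv_surj x
  simp only [wB, List.map_cons, List.map_nil, List.prod_cons, List.prod_nil, mul_one, mul_apply', one_apply', Int.cast_one, Int.cast_neg,
    Int.cast_ofNat, xb0_apply, xb1_apply, xb2_apply, xb3_apply, xb4_apply, xb5_apply, xb6_apply, xb7_apply]
  refine vv_congr ?_ ?_ ?_ ?_ ?_ <;> ring

lemma cb_7_4 (t u : F) : (xb F 4 u)⁻¹ * (xb F 7 t)⁻¹ * xb F 4 u * xb F 7 t = wB F (digB2.tbl.commF 7 4) t u := by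
  have e : digB2.tbl.commF 7 4 = [] := by decide +kernel
  rw [e, xb_inv (by norm_num : 4 < 8), xb_inv (by norm_num : 7 < 8)]
  apply OG_ext
  intro x
  obtain ⟨z, a0, a1, b0, b1, rfl⟩ := vv_surj x
  simp only [wB, List.map_cons, List.map_nil, List.prod_cons, List.prod_nil, mul_one, mul_apply', one_apply', Int.cast_one, Int.cast_neg,
    Int.cast_ofNat, xb0_apply, xb1_apply, xb2_apply, xb3_apply, xb4_apply, xb5_apply, xb6_apply, xb7_apply]
  refine vv_congr ?_ ?_ ?_ ?_ ?_ <;> ring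

lemma cb_7_5 (t u : F) : (xb F 5 u)⁻¹ * (xb F 7 t)⁻¹ * xb F 5 u * xb F 7 t = wB F (digB2.tbl.commF 7 5) t u := by
  have e : digB2.tbl.commF 7 5 = [] := by decide +kernel
  rw [e, xb_inv (by norm_num : 5 < 8), xb_inv (by norm_num : 7 < 8)]
  apply OG_ext
  intro x
  obtain ⟨z, a0, a1, b0, b1, rfl⟩ := vv_surj x
  simp only [wB, List.map_cons, List.map_nil, List.prod_cons, List.prod_nil, mul_one, mul_apply', one_apply', Int.cast_one, Int.cast_neg,
    Int.cast_ofNat, xb0_apply, xb1_apply, xb2_apply, xb3_apply, xb4_apply, xb5_apply, xb6_apply, xb7_apply]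
  refine vv_congr ?_ ?_ ?_ ?_ ?_ <;> ring

lemma cb_7_6 (t u : F) : (xb F 6 u)⁻¹ * (xb F 7 t)⁻¹ * xb F 6 u * xb F 7 t = wB F (digB2.tbl.commF 7 6) t u := by
  have e : digB2.tbl.commF 7 6 = [] := by decide +kernel
  rw [e, xb_inv (by norm_num : 6 < 8), xb_inv (by norm_num : 7 < 8)]
  apply OG_ext
  intro x
  obtain ⟨z, a0, a1, b0, b1, rfl⟩ := vv_surj x
  simp only [wB, List.map_cons, List.map_nil, List.prod_cons, List.prod_nil, mul_one, mul_apply', one_apply', Int.cast_one, Int.cast_neg,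
    Int.cast_ofNat, xb0_apply, xb1_apply, xb2_apply, xb3_apply, xb4_apply, xb5_apply, xb6_apply, xb7_apply]
  refine vv_congr ?_ ?_ ?_ ?_ ?_ <;> ring

lemma cb_all {r s : ℕ} (hr : r < 8) (hs : s < 8) (h1 : s ≠ r) (h2 : s ≠ digB2.tbl.neg r) (t u : F) :
    (xb F s u)⁻¹ * (xb F r t)⁻¹ * xb F s u * xb F r t = wB F (digB2.tbl.commF r s) t u := by
  interval_cases r
  · interval_cases s
    · exact absurd rfl h1
    · exact cb_0_1 t u
    · exact cb_0_2 t u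
    · exact cb_0_3 t u
    · exact cb_0_4 t u
    · exact cb_0_5 t u
    · exact cb_0_6 t u
    · exact absurd (by decide +kernel) h2
  · interval_cases s
    · exact cb_1_0 t u
    · exact absurd rfl h1
    · exact cb_1_2 t u
    · exact cb_1_3 t u
    · exact cb_1_4 t u
    · exact cb_1_5 t u
    · exact absurd (by decide +kernel) h2
    · exact cb_1_7 t u
  · interval_cases s
    · exact cb_2_0 t u
    · exact cb_2_1 t u
    · exact absurd rfl h1
    · exact cb_2_3 t u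
    · exact cb_2_4 t u
    · exact absurd (by decide +kernel) h2
    · exact cb_2_6 t u
    · exact cb_2_7 t u
  · interval_cases s
    · exact cb_3_0 t u
    · exact cb_3_1 t u
    · exact cb_3_2 t u
    · exact absurd rfl h1
    · exact absurd (by decide +kernel) h2
    · exact cb_3_5 t u
    · exact cb_3_6 t u
    · exact cb_3_7 t u
  · interval_cases s
    · exact cb_4_0 t u
    · exact cb_4_1 t u
    · exact cb_4_2 t u
    · exact absurd (by decide +kernel) h2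
    · exact absurd rfl h1
    · exact cb_4_5 t u
    · exact cb_4_6 t u
    · exact cb_4_7 t u
  · interval_cases s
    · exact cb_5_0 t u
    · exact cb_5_1 t u
    · exact absurd (by decide +kernel) h2
    · exact cb_5_3 t u
    · exact cb_5_4 t u
    · exact absurd rfl h1
    · exact cb_5_6 t u
    · exact cb_5_7 t u
  · interval_cases s
    · exact cb_6_0 t u
    · exact absurd (by decide +kernel) h2
    · exact cb_6_2 t u
    · exact cb_6_3 t u
    · exact cb_6_4 t u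
    · exact cb_6_5 t u
    · exact absurd rfl h1
    · exact cb_6_7 t u
  · interval_cases s
    · exact absurd (by decide +kernel) h2
    · exact cb_7_1 t u
    · exact cb_7_2 t u
    · exact cb_7_3 t u
    · exact cb_7_4 t u
    · exact cb_7_5 t u
    · exact cb_7_6 t u
    · exact absurd rfl h1

/-- The element `h̄`. -/
noncomputable def hbB (F : Type*) [Field F] (r : ℕ) (t : F) : OG (Qodd 2 F) :=
  xb F r t * xb F (digB2.tbl.neg r) (-t⁻¹) * xb F r t * (xb F r (-1) * xb F (digB2.tbl.neg r) (-(-1 : F)⁻¹) * xb F r (-1))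

lemma hb0_apply {t : F} (ht : t ≠ 0) (z a0 a1 b0 b1 : F) :
    (hbB F 0 t).1 (vv z a0 a1 b0 b1) = vv z (t⁻¹ * a0) (t⁻¹ * a1) (t * b0) (t * b1) := by
  have en : digB2.tbl.neg 0 = 7 := by decide +kernel
  unfold hbB
  rw [en]
  simp only [mul_apply', xb0_apply, xb1_apply, xb2_apply, xb3_apply, xb4_apply, xb5_apply, xb6_apply, xb7_apply]
  refine vv_congr ?_ ?_ ?_ ?_ ?_ <;> field_simp <;> ring

lemma hb1_apply {t : F} (ht : t ≠ 0) (z a0 a1 b0 b1 : F) :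
    (hbB F 1 t).1 (vv z a0 a1 b0 b1) = vv z ((t ^ 2)⁻¹ * a0) (1 * a1) ((t ^ 2) * b0) (1 * b1) := by
  have en : digB2.tbl.neg 1 = 6 := by decide +kernel
  unfold hbB
  rw [en]
  simp only [mul_apply', xb0_apply, xb1_apply, xb2_apply, xb3_apply, xb4_apply, xb5_apply, xb6_apply, xb7_apply]
  refine vv_congr ?_ ?_ ?_ ?_ ?_ <;> field_simp <;> ring

lemma hb2_apply {t : F} (ht : t ≠ 0) (z a0 a1 b0 b1 : F) :
    (hbB F 2 t).1 (vv z a0 a1 b0 b1) = vv z (1 * a0) ((t ^ 2)⁻¹ * a1) (1 * b0) ((t ^ 2) * b1) := by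
  have en : digB2.tbl.neg 2 = 5 := by decide +kernel
  unfold hbB
  rw [en]
  simp only [mul_apply', xb0_apply, xb1_apply, xb2_apply, xb3_apply, xb4_apply, xb5_apply, xb6_apply, xb7_apply]
  refine vv_congr ?_ ?_ ?_ ?_ ?_ <;> field_simp <;> ring

lemma hb3_apply {t : F} (ht : t ≠ 0) (z a0 a1 b0 b1 : F) :
    (hbB F 3 t).1 (vv z a0 a1 b0 b1) = vv z (t⁻¹ * a0) (t * a1) (t * b0) (t⁻¹ * b1) := by
  have en : digB2.tbl.neg 3 = 4 := by decide +kernel
  unfold hbB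
  rw [en]
  simp only [mul_apply', xb0_apply, xb1_apply, xb2_apply, xb3_apply, xb4_apply, xb5_apply, xb6_apply, xb7_apply]
  refine vv_congr ?_ ?_ ?_ ?_ ?_ <;> field_simp <;> ring

lemma hb4_apply {t : F} (ht : t ≠ 0) (z a0 a1 b0 b1 : F) :
    (hbB F 4 t).1 (vv z a0 a1 b0 b1) = vv z (t * a0) (t⁻¹ * a1) (t⁻¹ * b0) (t * b1) := by
  have en : digB2.tbl.neg 4 = 3 := by decide +kernel
  unfold hbB
  rw [en]
  simp only [mul_apply', xb0_apply, xb1_apply, xb2_apply, xb3_apply, xb4_apply, xb5_apply, xb6_apply, xb7_apply]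
  refine vv_congr ?_ ?_ ?_ ?_ ?_ <;> field_simp <;> ring

lemma hb5_apply {t : F} (ht : t ≠ 0) (z a0 a1 b0 b1 : F) :
    (hbB F 5 t).1 (vv z a0 a1 b0 b1) = vv z (1 * a0) ((t ^ 2) * a1) (1 * b0) ((t ^ 2)⁻¹ * b1) := by
  have en : digB2.tbl.neg 5 = 2 := by decide +kernel
  unfold hbB
  rw [en]
  simp only [mul_apply', xb0_apply, xb1_apply, xb2_apply, xb3_apply, xb4_apply, xb5_apply, xb6_apply, xb7_apply]
  refine vv_congr ?_ ?_ ?_ ?_ ?_ <;> field_simp <;> ring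

lemma hb6_apply {t : F} (ht : t ≠ 0) (z a0 a1 b0 b1 : F) :
    (hbB F 6 t).1 (vv z a0 a1 b0 b1) = vv z ((t ^ 2) * a0) (1 * a1) ((t ^ 2)⁻¹ * b0) (1 * b1) := by
  have en : digB2.tbl.neg 6 = 1 := by decide +kernel
  unfold hbB
  rw [en]
  simp only [mul_apply', xb0_apply, xb1_apply, xb2_apply, xb3_apply, xb4_apply, xb5_apply, xb6_apply, xb7_apply]
  refine vv_congr ?_ ?_ ?_ ?_ ?_ <;> field_simp <;> ring

lemma hb7_apply {t : F} (ht : t ≠ 0) (z a0 a1 b0 b1 : F) :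
    (hbB F 7 t).1 (vv z a0 a1 b0 b1) = vv z (t * a0) (t * a1) (t⁻¹ * b0) (t⁻¹ * b1) := by
  have en : digB2.tbl.neg 7 = 0 := by decide +kernel
  unfold hbB
  rw [en]
  simp only [mul_apply', xb0_apply, xb1_apply, xb2_apply, xb3_apply, xb4_apply, xb5_apply, xb6_apply, xb7_apply]
  refine vv_congr ?_ ?_ ?_ ?_ ?_ <;> field_simp <;> ring

lemma hb_mul_all {r : ℕ} (hr : r < 8) {t₁ t₂ : F} (h₁ : t₁ ≠ 0) (h₂ : t₂ ≠ 0) : hbB F r t₁ * hbB F r t₂ = hbB F r (t₁ * t₂) := by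
  apply OG_ext
  intro x
  obtain ⟨z, a0, a1, b0, b1, rfl⟩ := vv_surj x
  rw [mul_apply']
  interval_cases r
  · rw [hb0_apply h₂, hb0_apply h₁, hb0_apply (mul_ne_zero h₁ h₂)]
    refine vv_congr ?_ ?_ ?_ ?_ ?_ <;> field_simp
  · rw [hb1_apply h₂, hb1_apply h₁, hb1_apply (mul_ne_zero h₁ h₂)]
    refine vv_congr ?_ ?_ ?_ ?_ ?_ <;> field_simp
  · rw [hb2_apply h₂, hb2_apply h₁, hb2_apply (mul_ne_zero h₁ h₂)]
    refine vv_congr ?_ ?_ ?_ ?_ ?_ <;> field_simp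
  · rw [hb3_apply h₂, hb3_apply h₁, hb3_apply (mul_ne_zero h₁ h₂)]
    refine vv_congr ?_ ?_ ?_ ?_ ?_ <;> field_simp
  · rw [hb4_apply h₂, hb4_apply h₁, hb4_apply (mul_ne_zero h₁ h₂)]
    refine vv_congr ?_ ?_ ?_ ?_ ?_ <;> field_simp
  · rw [hb5_apply h₂, hb5_apply h₁, hb5_apply (mul_ne_zero h₁ h₂)]
    refine vv_congr ?_ ?_ ?_ ?_ ?_ <;> field_simp
  · rw [hb6_apply h₂, hb6_apply h₁, hb6_apply (mul_ne_zero h₁ h₂)]
    refine vv_congr ?_ ?_ ?_ ?_ ?_ <;> field_simp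
  · rw [hb7_apply h₂, hb7_apply h₁, hb7_apply (mul_ne_zero h₁ h₂)]
    refine vv_congr ?_ ?_ ?_ ?_ ?_ <;> field_simp

/-- The generators. -/
noncomputable def genB2 (F : Type*) [Field F] : Fin chevB2.nroots × F → OG (Qodd 2 F) := fun p => xb F p.1.1 p.2

lemma lift_XB {r : ℕ} (hr : r < chevB2.nroots) (t : F) : FreeGroup.lift (genB2 F) (chevB2.stX r t) = xb F r t := by
  unfold ChevalleyDatum.stX
  rw [dif_pos hr, FreeGroup.lift_apply_of]
  rfl

lemma lift_HB {r : ℕ} (hr : r < chevB2.nroots) (t : F) : FreeGroup.lift (genB2 F) (chevB2.stH r t) = hbB F r t := by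
  have hn : chevB2.neg r < chevB2.nroots := good3B2.neg_lt hr
  have e := good3B2.correct.neg_eq r hr
  unfold ChevalleyDatum.stH ChevalleyDatum.stWord ChevalleyDatum.hWord ChevalleyDatum.nWord hbB
  simp only [List.cons_append, List.nil_append, List.map_cons, List.map_nil, List.prod_cons, List.prod_nil, mul_one, map_mul,
    lift_XB hr, lift_XB hn, mul_assoc, e]

lemma lift_wB {r s : ℕ} (hr : r < chevB2.nroots) (hs : s < chevB2.nroots) (t u : F) :
    FreeGroup.lift (genB2 F) (chevB2.stWord (chevB2.commWord F r s t u)) = wB F (digB2.tbl.commF r s) t u := by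
  have e : chevB2.commWord F r s t u = (digB2.tbl.commF r s).map fun c => (c.1, (c.2.1 : F) * (-t) ^ c.2.2.1 * u ^ c.2.2.2) := by
    unfold ChevalleyDatum.commWord
    rw [Tbl.commT_eq good3B2.correct good3B2.sane hr hs, Tbl.commF_eq]
  have hlt := commWord_range good3B2 hr hs t u
  rw [e] at hlt ⊢
  unfold ChevalleyDatum.stWord wB
  rw [map_list_prod, List.map_map, List.map_map]
  congr 1
  refine List.map_congr_left fun c hc => ?_
  exact lift_XB (hlt _ (List.mem_map_of_mem hc)) _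

/-- The relations. -/
lemma rels_B2 : ∀ g ∈ chevB2.steinbergRels F, FreeGroup.lift (genB2 F) g = 1 := by
  rintro g ((⟨r, t₁, t₂, hr, rfl⟩ | ⟨r, s, t, u, hr, hs, h1, h2, rfl⟩) | ⟨r, t₁, t₂, hr, h1, h2, rfl⟩)
  · simp only [map_mul, map_inv, lift_XB hr]
    rw [mul_inv_eq_one]
    exact xb_add hr _ _
  · simp only [map_mul, map_inv, lift_XB hr, lift_XB hs]
    rw [mul_inv_eq_one, lift_wB hr hs]
    refine cb_all hr hs h1 ?_ t u
    rwa [good3B2.correct.neg_eq r hr]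
  · simp only [map_mul, map_inv, lift_HB hr]
    rw [mul_inv_eq_one]
    exact hb_mul_all hr h1 h2

/-- The homomorphism from Steinberg's group. -/
noncomputable def psiB2 (F : Type*) [Field F] : chevB2.SteinbergGroup F →* OG (Qodd 2 F) :=
  PresentedGroup.toGroup rels_B2

lemma xb_mem {r : ℕ} (hr : r < 8) (t : F) : xb F r t ∈ (psiB2 F).range :=
  ⟨PresentedGroup.mk _ (chevB2.stX r t), lift_XB hr t⟩

end Cfsg.Agent.Lib.PO
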