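/-
The isomorphism of the Chevalley group of type B₂ with PΩ₅.
-/
import Cfsg.Agent.Lib.PO.B2
import Cfsg.Agent.Lib.Classical.OrthBridge

set_option autoImplicit false
set_option linter.unusedSectionVars false

namespace Cfsg.Agent.Lib.PO

open Cfsg Cfsg.Lie Cfsg.Agent.Lib.Chev Cfsg.Agent.Lib.St
open Cfsg.Agent.Lib.Classical.Witt Cfsg.Agent.Lib.Classical.Abs Cfsg.Agent.Lib.Classical.Orth
open Cfsg.Agent.Lib.Known3.OmegaCalc
open scoped commutatorElement

local notation "P" => QuadraticMap.polarBilin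

variable {F : Type*} [Field F]

/-- The first vectors of the pairs. -/
def eB (F : Type*) [Field F] : Fin 2 → VB F := ![e0B F, e1B F]

/-- The second vectors of the pairs. -/
def fB (F : Type*) [Field F] : Fin 2 → VB F := ![f0B F, f1B F]

lemma vv_zero : vv (0 : F) 0 0 0 0 = 0 := by
  funext p
  rcases p with ⟨⟩ | i | i
  · rfl
  · fin_cases i <;> rfl
  · fin_cases i <;> rfl

lemma hsB : HS (Qodd 2 F) (eB F) (fB F) where
  he i := by
    fin_cases i <;> (show Qodd 2 F (vv _ _ _ _ _) = 0; rw [Q_vv]; ring)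
  hf i := by
    fin_cases i <;> (show Qodd 2 F (vv _ _ _ _ _) = 0; rw [Q_vv]; ring)
  hee i j := by
    fin_cases i <;> fin_cases j <;> (show P (Qodd 2 F) (vv _ _ _ _ _) (vv _ _ _ _ _) = 0; rw [P_vv]; ring)
  hff i j := by
    fin_cases i <;> fin_cases j <;> (show P (Qodd 2 F) (vv _ _ _ _ _) (vv _ _ _ _ _) = 0; rw [P_vv]; ring)
  hef i j := by
    fin_cases i <;> fin_cases j <;> (show P (Qodd 2 F) (vv _ _ _ _ _) (vv _ _ _ _ _) = _; rw [P_vv]; simp)
  hZ x hq h := by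
    obtain ⟨z, a0, a1, b0, b1, rfl⟩ := vv_surj x
    have h0 := h 0
    have h1 := h 1
    have h00 : P (Qodd 2 F) (vv 0 1 0 0 0) (vv z a0 a1 b0 b1) = 0 := h0.1
    have h01 : P (Qodd 2 F) (vv 0 0 0 1 0) (vv z a0 a1 b0 b1) = 0 := h0.2
    have h10 : P (Qodd 2 F) (vv 0 0 1 0 0) (vv z a0 a1 b0 b1) = 0 := h1.1
    have h11 : P (Qodd 2 F) (vv 0 0 0 0 1) (vv z a0 a1 b0 b1) = 0 := h1.2
    rw [P_vv] at h00 h01 h10 h11
    have hb0 : b0 = 0 := by linear_combination h00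
    have ha0 : a0 = 0 := by linear_combination h01
    have hb1 : b1 = 0 := by linear_combination h10
    have ha1 : a1 = 0 := by linear_combination h11
    subst hb0 ha0 hb1 ha1
    rw [Q_vv] at hq
    have hz : z = 0 := by
      have : z ^ 2 = 0 := by linear_combination hq
      exact pow_eq_zero_iff (two_ne_zero) |>.1 this
    rw [hz, vv_zero]

/-- Every vector is a combination of the basis. -/
lemma vv_lin (z a0 a1 b0 b1 : F) :
    vv z a0 a1 b0 b1 = z • zB F + a0 • e0B F + a1 • e1B F + b0 • f0B F + b1 • f1B F := by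
  unfold zB e0B e1B f0B f1B
  simp only [vv_smul, vv_add]
  refine vv_congr ?_ ?_ ?_ ?_ ?_ <;> ring

/-- The elements acting diagonally. -/
def TT (g : OG (Qodd 2 F)) : Prop :=
  ∃ c d : F, c ≠ 0 ∧ g.1 (e0B F) = e0B F ∧ g.1 (f0B F) = f0B F ∧ g.1 (e1B F) = c • e1B F ∧ g.1 (f1B F) = c⁻¹ • f1B F ∧
    g.1 (zB F) = d • zB F

lemma TT_apply {g : OG (Qodd 2 F)} {c d : F} (h1 : g.1 (e0B F) = e0B F) (h2 : g.1 (f0B F) = f0B F) (h3 : g.1 (e1B F) = c • e1B F)
    (h4 : g.1 (f1B F) = c⁻¹ • f1B F) (h5 : g.1 (zB F) = d • zB F) (z a0 a1 b0 b1 : F) :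
    g.1 (vv z a0 a1 b0 b1) = vv (d * z) a0 (c * a1) b0 (c⁻¹ * b1) := by
  rw [vv_lin, map_add, map_add, map_add, map_add, map_smul, map_smul, map_smul, map_smul, map_smul, h1, h2, h3, h4, h5]
  unfold zB e0B e1B f0B f1B
  simp only [vv_smul, vv_add]
  refine vv_congr ?_ ?_ ?_ ?_ ?_ <;> ring

lemma TT_comm {g g' : OG (Qodd 2 F)} (h : TT g) (h' : TT g') : g * g' = g' * g := by
  obtain ⟨c, d, -, h1, h2, h3, h4, h5⟩ := h
  obtain ⟨c', d', -, h1', h2', h3', h4', h5'⟩ := h'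
  apply OG_ext
  intro x
  obtain ⟨z, a0, a1, b0, b1, rfl⟩ := vv_surj x
  rw [mul_apply', mul_apply', TT_apply h1' h2' h3' h4' h5', TT_apply h1 h2 h3 h4 h5, TT_apply h1 h2 h3 h4 h5, TT_apply h1' h2' h3' h4' h5']
  refine vv_congr ?_ ?_ ?_ ?_ ?_ <;> ring


lemma one_mem_Ak : (1 : Fin 2) ∈ Ak 2 1 := by
  show 1 ≤ ((1 : Fin 2) : ℕ)
  decide

lemma zero_not_mem_Ak : (0 : Fin 2) ∉ Ak 2 1 := by
  intro h
  have h' : 1 ≤ ((0 : Fin 2) : ℕ) := h
  simp at h'

/-- Moving the image of `e₁` to a multiple of `e₁`. -/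
lemma exists_to_e1 {l : OG (Qodd 2 F)} (hl : Fx (eB F) (fB F) (Ak 2 1) l) :
    ∃ h ∈ EE (Qodd 2 F), Fx (eB F) (fB F) (Ak 2 1) h ∧ ∃ c : F, c ≠ 0 ∧ (h * l).1 (e1B F) = c • e1B F := by
  have hH := hsB (F := F)
  have hi := one_mem_Ak
  set y := l.1 (eB F 1) with hy
  have hyW : y ∈ WW (Qodd 2 F) (eB F) (fB F) (Ak 2 1) := hl.map_WW (hH.e_mem hi)
  have hq : Qodd 2 F y = 0 := by rw [hy, OG_pres, hH.he]
  by_cases c1 : P (Qodd 2 F) (fB F 1) y = 0
  swap
  · obtain ⟨h, hh, e⟩ := hH.to_e hi hyW hq c1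
    refine ⟨h, hH.EA_le_EE hh, hH.Fx_of_mem hh, _, c1, ?_⟩
    rw [mul_apply']
    exact e
  · have h0 : y ≠ 0 := by
      intro h
      have : l.1 (eB F 1) = l.1 0 := by rw [← hy, h, map_zero]
      exact hH.e_ne 1 (l.1.injective this)
    obtain ⟨z, a0, a1, b0, b1, hv⟩ := vv_surj y
    have c00 : P (Qodd 2 F) (vv 0 1 0 0 0) y = 0 := (hyW 0 zero_not_mem_Ak).1
    have c01 : P (Qodd 2 F) (vv 0 0 0 1 0) y = 0 := (hyW 0 zero_not_mem_Ak).2
    have c11 : P (Qodd 2 F) (vv 0 0 0 0 1) y = 0 := c1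
    rw [hv, P_vv] at c00 c01 c11
    rw [hv, Q_vv] at hq
    have hb0 : b0 = 0 := by linear_combination c00
    have ha0 : a0 = 0 := by linear_combination c01
    have ha1 : a1 = 0 := by linear_combination c11
    subst hb0 ha0 ha1
    have hz : z = 0 := by
      have : z ^ 2 = 0 := by linear_combination hq
      exact pow_eq_zero_iff (two_ne_zero) |>.1 this
    subst hz
    have hb1 : b1 ≠ 0 := by
      intro h
      rw [h, vv_zero] at hv
      exact h0 hv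
    -- a first transformation
    have hs : xb F 5 1 ∈ EA (Qodd 2 F) (eB F) (fB F) (Ak 2 1) := by
      have hw1 : P (Qodd 2 F) (eB F 1) ((-1 : F) • zB F) = 0 := by
        show P (Qodd 2 F) (vv 0 0 1 0 0) ((-1 : F) • vv 1 0 0 0 0) = 0
        rw [vv_smul, P_vv]
        ring
      refine sg_e_mem hi ?_ hw1
      intro j hj
      have hj0 : j = 0 := by
        by_contra hne
        apply hj
        have : j = 1 := by
          fin_cases j
          · exact absurd rfl hne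
          · rfl
        rw [this]
        exact hi
      subst hj0
      constructor
      · show P (Qodd 2 F) (vv 0 1 0 0 0) ((-1 : F) • vv 1 0 0 0 0) = 0
        rw [vv_smul, P_vv]
        ring
      · show P (Qodd 2 F) (vv 0 0 0 1 0) ((-1 : F) • vv 1 0 0 0 0) = 0
        rw [vv_smul, P_vv]
        ring
    set y' := (xb F 5 1).1 y with hy'
    have hy'W : y' ∈ WW (Qodd 2 F) (eB F) (fB F) (Ak 2 1) := (hH.Fx_of_mem hs).map_WW hyW
    have hq' : Qodd 2 F y' = 0 := by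
      rw [hy', OG_pres, hy, OG_pres, hH.he]
    have c2 : P (Qodd 2 F) (fB F 1) y' ≠ 0 := by
      have e1 : y' = vv (0 - 1 * b1) 0 (0 + 2 * 1 * 0 - 1 ^ 2 * b1) 0 b1 := by
        rw [hy', hv, xb5_apply]
      show P (Qodd 2 F) (vv 0 0 0 0 1) y' ≠ 0
      rw [e1, P_vv]
      intro h
      apply hb1
      linear_combination -h
    obtain ⟨h, hh, e⟩ := hH.to_e hi hy'W hq' c2
    refine ⟨h * xb F 5 1, hH.EA_le_EE (mul_mem hh hs), hH.Fx_of_mem (mul_mem hh hs), _, c2, ?_⟩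
    rw [mul_apply', mul_apply']
    exact e

/-- Reduction to the diagonal elements. -/
theorem exists_TT (g : OG (Qodd 2 F)) : ∃ h ∈ EE (Qodd 2 F), TT (h * g) := by
  have hH := hsB (F := F)
  have hi := one_mem_Ak
  obtain ⟨h₁, hh₁, hF₁⟩ := hH.exists_last 1 (by norm_num) g
  obtain ⟨h₂, hh₂, hF₂, c, hc, e2⟩ := exists_to_e1 hF₁
  have hF₃ : Fx (eB F) (fB F) (Ak 2 1) (h₂ * (h₁ * g)) := by
    intro j hj
    constructor
    · rw [mul_apply', (hF₁ j hj).1]
      exact (hF₂ j hj).1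
    · rw [mul_apply', (hF₁ j hj).2]
      exact (hF₂ j hj).2
  set l := h₂ * (h₁ * g) with hl
  have e1' : l.1 (eB F 1) = c • eB F 1 := e2
  set y := l.1 (fB F 1) with hy
  have hyW : y ∈ WW (Qodd 2 F) (eB F) (fB F) (Ak 2 1) := hF₃.map_WW (hH.f_mem hi)
  have hpe : P (Qodd 2 F) (eB F 1) y = c⁻¹ := by
    have h3 := OG_polar l (eB F 1) (fB F 1)
    rw [e1', ← hy, hH.ef_self, map_smul, LinearMap.smul_apply, smul_eq_mul] at h3
    field_simp
    linear_combination h3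
  have hd : P (Qodd 2 F) (eB F 1) (c⁻¹ • fB F 1 - y) = 0 := by
    rw [map_sub, hpe, map_smul, hH.ef_self, smul_eq_mul, mul_one, sub_self]
  have hq : Qodd 2 F y = Qodd 2 F (c⁻¹ • fB F 1) := by
    rw [hy, OG_pres, Q_smul, hH.hf, mul_zero]
  have hp0 : P (Qodd 2 F) (eB F 1) y ≠ 0 := by
    rw [hpe]
    exact inv_ne_zero hc
  have hmv := sg_move (hH.he 1) hd hq hp0
  have hd' : P (Qodd 2 F) (eB F 1) ((P (Qodd 2 F) (eB F 1) y)⁻¹ • (c⁻¹ • fB F 1 - y)) = 0 := by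
    rw [map_smul, hd, smul_zero]
  have hm₃ := sg_e_mem (A := Ak 2 1) (e := eB F) (f := fB F) hi
    (Submodule.smul_mem _ ((P (Qodd 2 F) (eB F 1) y)⁻¹) (Submodule.sub_mem _ (Submodule.smul_mem _ _ (hH.f_mem hi)) hyW)) hd'
  set s := sg (Qodd 2 F) (eB F 1) ((P (Qodd 2 F) (eB F 1) y)⁻¹ • (c⁻¹ • fB F 1 - y)) with hs
  have hfix : s.1 (eB F 1) = eB F 1 := by
    have e' : P (Qodd 2 F) ((P (Qodd 2 F) (eB F 1) y)⁻¹ • (c⁻¹ • fB F 1 - y)) (eB F 1) = 0 := by
      rw [pol_comm]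
      exact hd'
    rw [hs, sg_apply (hH.he 1) hd', e', hH.hee]
    simp
  have hF₄ := hH.Fx_of_mem hm₃
  refine ⟨s * (h₂ * h₁), mul_mem (hH.EA_le_EE hm₃) (mul_mem hh₂ hh₁), ?_⟩
  have e3 : s * (h₂ * h₁) * g = s * l := by
    rw [hl]
    group
  rw [e3]
  have a1 : (s * l).1 (eB F 0) = eB F 0 := by
    rw [mul_apply', (hF₃ 0 zero_not_mem_Ak).1, (hF₄ 0 zero_not_mem_Ak).1]
  have a2 : (s * l).1 (fB F 0) = fB F 0 := by
    rw [mul_apply', (hF₃ 0 zero_not_mem_Ak).2, (hF₄ 0 zero_not_mem_Ak).2]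
  have a3 : (s * l).1 (eB F 1) = c • eB F 1 := by
    rw [mul_apply', e1', map_smul, hfix]
  have a4 : (s * l).1 (fB F 1) = c⁻¹ • fB F 1 := by
    rw [mul_apply', ← hy]
    exact hmv
  set x := (s * l).1 (zB F) with hx
  obtain ⟨d, a0, a1', b0, b1, hv⟩ := vv_surj x
  have p1 : P (Qodd 2 F) (eB F 0) x = 0 := by
    rw [← a1, hx, OG_polar]
    show P (Qodd 2 F) (vv 0 1 0 0 0) (vv 1 0 0 0 0) = 0
    rw [P_vv]
    ring
  have p2 : P (Qodd 2 F) (fB F 0) x = 0 := by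
    rw [← a2, hx, OG_polar]
    show P (Qodd 2 F) (vv 0 0 0 1 0) (vv 1 0 0 0 0) = 0
    rw [P_vv]
    ring
  have p3 : c * P (Qodd 2 F) (eB F 1) x = 0 := by
    rw [← smul_eq_mul, ← LinearMap.smul_apply, ← map_smul, ← a3, hx, OG_polar]
    show P (Qodd 2 F) (vv 0 0 1 0 0) (vv 1 0 0 0 0) = 0
    rw [P_vv]
    ring
  have p4 : c⁻¹ * P (Qodd 2 F) (fB F 1) x = 0 := by
    rw [← smul_eq_mul, ← LinearMap.smul_apply, ← map_smul, ← a4, hx, OG_polar]
    show P (Qodd 2 F) (vv 0 0 0 0 1) (vv 1 0 0 0 0) = 0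
    rw [P_vv]
    ring
  have p3' : P (Qodd 2 F) (vv 0 0 1 0 0) x = 0 := (mul_eq_zero.1 p3).resolve_left hc
  have p4' : P (Qodd 2 F) (vv 0 0 0 0 1) x = 0 := (mul_eq_zero.1 p4).resolve_left (inv_ne_zero hc)
  have p1' : P (Qodd 2 F) (vv 0 1 0 0 0) x = 0 := p1
  have p2' : P (Qodd 2 F) (vv 0 0 0 1 0) x = 0 := p2
  rw [hv, P_vv] at p1' p2' p3' p4'
  have hb0 : b0 = 0 := by linear_combination p1'
  have ha0 : a0 = 0 := by linear_combination p2'
  have hb1 : b1 = 0 := by linear_combination p3'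
  have ha1 : a1' = 0 := by linear_combination p4'
  refine ⟨c, d, hc, a1, a2, a3, a4, ?_⟩
  rw [← hx, hv, hb0, ha0, hb1, ha1]
  unfold zB
  rw [vv_smul]
  refine vv_congr ?_ ?_ ?_ ?_ ?_ <;> ring

/-- The commutator subgroup of the orthogonal group lies in the group of Siegel transformations. -/
theorem comm_le_B2 : commutator (OG (Qodd 2 F)) ≤ EE (Qodd 2 F) := by
  rw [commutator_def, Subgroup.commutator_le]
  intro x _ y _
  obtain ⟨h, hh, hx⟩ := exists_TT x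
  obtain ⟨k, hk, hy⟩ := exists_TT y
  have hc := TT_comm hx hy
  rw [← QuotientGroup.eq_one_iff]
  have e1 : ((x : OG (Qodd 2 F)) : OG (Qodd 2 F) ⧸ EE (Qodd 2 F)) = ((h * x : OG (Qodd 2 F)) : OG (Qodd 2 F) ⧸ EE (Qodd 2 F)) := by
    rw [QuotientGroup.mk_mul, (QuotientGroup.eq_one_iff h).2 hh, one_mul]
  have e2 : ((y : OG (Qodd 2 F)) : OG (Qodd 2 F) ⧸ EE (Qodd 2 F)) = ((k * y : OG (Qodd 2 F)) : OG (Qodd 2 F) ⧸ EE (Qodd 2 F)) := by
    rw [QuotientGroup.mk_mul, (QuotientGroup.eq_one_iff k).2 hk, one_mul]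
  rw [commutatorElement_def, QuotientGroup.mk_mul, QuotientGroup.mk_mul, QuotientGroup.mk_mul, QuotientGroup.mk_inv, QuotientGroup.mk_inv, e1, e2,
    ← QuotientGroup.mk_inv, ← QuotientGroup.mk_inv, ← QuotientGroup.mk_mul, ← QuotientGroup.mk_mul, ← QuotientGroup.mk_mul]
  rw [QuotientGroup.eq_one_iff, hc]
  have : k * y * (h * x) * (h * x)⁻¹ * (k * y)⁻¹ = 1 := by group
  rw [this]
  exact one_mem _


lemma Q_e0 : Qodd 2 F (e0B F) = 0 := by
  show Qodd 2 F (vv 0 1 0 0 0) = 0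
  rw [Q_vv]
  ring

lemma Q_e1 : Qodd 2 F (e1B F) = 0 := by
  show Qodd 2 F (vv 0 0 1 0 0) = 0
  rw [Q_vv]
  ring

lemma Q_f0 : Qodd 2 F (f0B F) = 0 := by
  show Qodd 2 F (vv 0 0 0 1 0) = 0
  rw [Q_vv]
  ring

lemma Q_f1 : Qodd 2 F (f1B F) = 0 := by
  show Qodd 2 F (vv 0 0 0 0 1) = 0
  rw [Q_vv]
  ring

/-- The image of Steinberg's group contains the transformations needed. -/
lemma sum_coord (x : VB F) : x - ∑ k, (P (Qodd 2 F) (fB F k) x • eB F k + P (Qodd 2 F) (eB F k) x • fB F k) ∈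
    {w : VB F | ∃ c : F, w = c • zB F} := by
  obtain ⟨z, a0, a1, b0, b1, rfl⟩ := vv_surj x
  refine ⟨z, ?_⟩
  rw [Fin.sum_univ_two]
  show vv z a0 a1 b0 b1 - ((P (Qodd 2 F) (vv 0 0 0 1 0) (vv z a0 a1 b0 b1) • vv 0 1 0 0 0 + P (Qodd 2 F) (vv 0 1 0 0 0) (vv z a0 a1 b0 b1) • vv 0 0 0 1 0) +
    (P (Qodd 2 F) (vv 0 0 0 0 1) (vv z a0 a1 b0 b1) • vv 0 0 1 0 0 + P (Qodd 2 F) (vv 0 0 1 0 0) (vv z a0 a1 b0 b1) • vv 0 0 0 0 1)) = z • vv 1 0 0 0 0
  simp only [P_vv, vv_smul, vv_add, vv_sub]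
  refine vv_congr ?_ ?_ ?_ ?_ ?_ <;> ring

/-- The image of Steinberg's group is the commutator subgroup of the orthogonal group. -/
theorem range_psiB2 {a : F} (ha : a ≠ 0) (ha1 : a ≠ 1) : (psiB2 F).range = commutator (OG (Qodd 2 F)) := by
  have hH := hsB (F := F)
  apply le_antisymm
  · have hp : commutator (chevB2.SteinbergGroup F) = ⊤ :=
      Sys.perf_two (canSys (K := F) good3B2 (chevB2.steinbergRels F) Set.subset_union_left (lift_rels good3B2)) stHypB2 rfl digB2_perfH0 digB2_perfTwo ha ha1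
    rintro _ ⟨γ, rfl⟩
    have h1 : γ ∈ commutator (chevB2.SteinbergGroup F) := by
      rw [hp]
      exact Subgroup.mem_top _
    have h2 : (commutator (chevB2.SteinbergGroup F)).map (psiB2 F) ≤ commutator (OG (Qodd 2 F)) := by
      rw [commutator_def, Subgroup.map_commutator, commutator_def]
      exact Subgroup.commutator_mono le_top le_top
    exact h2 ⟨γ, h1, rfl⟩
  · refine comm_le_B2.trans ((hH.EE_le_EA (i := 0) (j := 1) (by decide)).trans ?_)
    refine hH.EA_le_of (Z := {w : VB F | ∃ c : F, w = c • zB F}) sum_coord (fun i z hz _ => ?_) (fun i z hz _ => ?_) (fun i k hk c => ?_) (fun i k hk c => ?_)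
      (fun i k hk c => ?_) (fun i k hk c => ?_)
    · obtain ⟨c, rfl⟩ := hz
      fin_cases i
      · have := xb_mem (by norm_num : 6 < 8) (-c)
        rwa [show xb F 6 (-c) = sg (Qodd 2 F) (e0B F) ((- -c) • zB F) from rfl, neg_neg] at this
      · have := xb_mem (by norm_num : 5 < 8) (-c)
        rwa [show xb F 5 (-c) = sg (Qodd 2 F) (e1B F) ((- -c) • zB F) from rfl, neg_neg] at this
    · obtain ⟨c, rfl⟩ := hz
      fin_cases i
      · exact xb_mem (by norm_num : 1 < 8) c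
      · exact xb_mem (by norm_num : 2 < 8) c
    · fin_cases i <;> fin_cases k
      · exact absurd rfl hk
      · have := xb_mem (by norm_num : 7 < 8) (-c)
        rwa [show xb F 7 (-c) = sg (Qodd 2 F) (e0B F) ((- -c) • e1B F) from rfl, neg_neg] at this
      · have := xb_mem (by norm_num : 7 < 8) c
        rw [show xb F 7 c = sg (Qodd 2 F) (e0B F) ((-c) • e1B F) from rfl, ← sg_swap Q_e0 Q_e1 (by
          show P (Qodd 2 F) (vv 0 1 0 0 0) (vv 0 0 1 0 0) = 0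
          rw [P_vv]
          ring)] at this
        exact this
      · exact absurd rfl hk
    · fin_cases i <;> fin_cases k
      · exact absurd rfl hk
      · have := xb_mem (by norm_num : 4 < 8) (-c)
        rwa [show xb F 4 (-c) = sg (Qodd 2 F) (e0B F) ((- -c) • f1B F) from rfl, neg_neg] at this
      · have := xb_mem (by norm_num : 3 < 8) (-c)
        rw [show xb F 3 (-c) = sg (Qodd 2 F) (f0B F) ((-c) • e1B F) from rfl, ← sg_swap Q_f0 Q_e1 (by
          show P (Qodd 2 F) (vv 0 0 0 1 0) (vv 0 0 1 0 0) = 0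
          rw [P_vv]
          ring)] at this
        exact this
      · exact absurd rfl hk
    · fin_cases i <;> fin_cases k
      · exact absurd rfl hk
      · exact xb_mem (by norm_num : 3 < 8) c
      · have := xb_mem (by norm_num : 4 < 8) c
        rw [show xb F 4 c = sg (Qodd 2 F) (e0B F) ((-c) • f1B F) from rfl, ← sg_swap Q_e0 Q_f1 (by
          show P (Qodd 2 F) (vv 0 1 0 0 0) (vv 0 0 0 0 1) = 0
          rw [P_vv]
          ring)] at this
        exact this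
      · exact absurd rfl hk
    · fin_cases i <;> fin_cases k
      · exact absurd rfl hk
      · exact xb_mem (by norm_num : 0 < 8) c
      · have := xb_mem (by norm_num : 0 < 8) (-c)
        rw [show xb F 0 (-c) = sg (Qodd 2 F) (f0B F) ((-c) • f1B F) from rfl, ← sg_swap Q_f0 Q_f1 (by
          show P (Qodd 2 F) (vv 0 0 0 1 0) (vv 0 0 0 0 1) = 0
          rw [P_vv]
          ring)] at this
        exact this
      · exact absurd rfl hk

/-- Two root elements which do not commute. -/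
lemma xb_not_comm : xb F 4 1 * xb F 3 1 ≠ xb F 3 1 * xb F 4 1 := by
  intro h
  have h1 := congrArg (fun g : OG (Qodd 2 F) => g.1 (vv 0 0 1 0 0)) h
  simp only [mul_apply', xb3_apply, xb4_apply] at h1
  obtain ⟨-, -, h2, -, -⟩ := vv_inj h1
  have h3 : (1 : F) = 0 := by linear_combination -h2
  exact one_ne_zero h3

/-- The Chevalley group of type B₂ is PΩ₅. -/
theorem b2_iso {F : Type*} [Field F] (hF : ∃ a : F, a ≠ 0 ∧ a ≠ 1) :
    Nonempty (↥(chevB2.group F) ≃* Cfsg.POmega F (Cfsg.quadFormOdd 2 F)) := by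
  obtain ⟨a, ha, ha1⟩ := hF
  rw [← coe_Qodd]
  set Q := Qodd 2 F with hQ
  have hmem : ∀ γ, (toOG Q).symm (psiB2 F γ) ∈ Cfsg.Omega F (⇑Q) := by
    intro γ
    rw [mem_Omega_iff, MulEquiv.apply_symm_apply, ← range_psiB2 ha ha1]
    exact ⟨γ, rfl⟩
  set ρ : chevB2.SteinbergGroup F →* ↥(Cfsg.Omega F (⇑Q)) :=
    MonoidHom.codRestrict ((toOG Q).symm.toMonoidHom.comp (psiB2 F)) _ hmem with hρ
  have hs : Function.Surjective ρ := by
    rintro ⟨x, hx⟩
    have h1 := (mem_Omega_iff Q x).1 hx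
    rw [← range_psiB2 ha ha1] at h1
    obtain ⟨γ, hγ⟩ := h1
    refine ⟨γ, Subtype.ext ?_⟩
    show (toOG Q).symm (psiB2 F γ) = x
    rw [hγ, MulEquiv.symm_apply_apply]
  have hne : ρ (PresentedGroup.mk _ (chevB2.stX 4 1)) * ρ (PresentedGroup.mk _ (chevB2.stX 3 1)) ≠
      ρ (PresentedGroup.mk _ (chevB2.stX 3 1)) * ρ (PresentedGroup.mk _ (chevB2.stX 4 1)) := by
    intro h
    apply xb_not_comm (F := F)
    have h1 := congrArg (fun x : ↥(Cfsg.Omega F (⇑Q)) => toOG Q x.1) h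
    have e : ∀ r : ℕ, r < 8 → toOG Q (ρ (PresentedGroup.mk _ (chevB2.stX r 1))).1 = xb F r 1 := fun r hr => by
      show toOG Q ((toOG Q).symm (psiB2 F (PresentedGroup.mk _ (chevB2.stX r 1)))) = _
      rw [MulEquiv.apply_symm_apply]
      exact lift_XB hr 1
    simp only [Subgroup.coe_mul, map_mul, e 3 (by norm_num), e 4 (by norm_num)] at h1
    exact h1
  exact iso_of_surj good3B2 stHypB2 (good3B2.perfect_of_two rfl digB2_perfH0 digB2_perfTwo ha ha1) ρ hs hne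

end Cfsg.Agent.Lib.PO
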