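/-
The natural representation of Steinberg's group of type D₄: the isomorphism with PΩ₈⁺.
-/
import Cfsg.Agent.Lib.PO.Plus
import Cfsg.Agent.Lib.PO.Iso
import Cfsg.Agent.Lib.St.Minu4
import Cfsg.Agent.Lib.St.Perf
import Cfsg.Agent.Lib.Known3.OmegaCalc
import Cfsg.Agent.Lib.Classical.OrthBridge
import Cfsg.Agent.Lib.Chev.T3D4

set_option autoImplicit false
set_option linter.unusedSectionVars false

namespace Cfsg.Agent.Lib.PO

open Cfsg Cfsg.Lie Cfsg.Agent.Lib.Chev Cfsg.Agent.Lib.St
open Cfsg.Agent.Lib.Classical.Witt Cfsg.Agent.Lib.Classical.Abs Cfsg.Agent.Lib.Classical.Orth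
open Cfsg.Agent.Lib.Chev.Tbl (beq_false beq_self blt_true blt_false)
open scoped commutatorElement

local notation "P" => QuadraticMap.polarBilin

/-- The coordinates. -/
abbrev I4 := Fin 4 ⊕ Fin 4

variable (F : Type*) [Field F]

/-- A coordinate vector. -/
def bv (p : I4) : I4 → F := Pi.single p 1

variable {F}

lemma P_bv (p : I4) (x : I4 → F) : P (Qplus 4 F) (bv F p) x = x p.swap := by
  rw [Known3.QuadIso.polar_Qplus]
  rcases p with i | i
  · simp [bv, Pi.single_apply, ite_mul]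
  · simp [bv, Pi.single_apply, ite_mul]

lemma Q_bv (p : I4) : Qplus 4 F (bv F p) = 0 := by
  rw [Qplus_apply]
  unfold Cfsg.quadFormPlus
  refine Finset.sum_eq_zero fun i _ => ?_
  rcases p with j | j
  · simp [bv, Pi.single_apply]
  · simp [bv, Pi.single_apply]

lemma bv_apply (p q : I4) : bv F p q = if q = p then 1 else 0 := by
  simp [bv, Pi.single_apply]

lemma hs4 : HS (Qplus 4 F) (fun i => bv F (Sum.inl i)) (fun i => bv F (Sum.inr i)) where
  he i := Q_bv _
  hf i := Q_bv _
  hee i j := by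
    rw [P_bv, bv_apply]
    simp
  hff i j := by
    rw [P_bv, bv_apply]
    simp
  hef i j := by
    rw [P_bv, bv_apply]
    simp [eq_comm]
  hZ x _ h := by
    funext p
    rcases p with i | i
    · have := (h i).2
      rwa [P_bv] at this
    · have := (h i).1
      rwa [P_bv] at this

lemma sp4 : HS.Sp (fun i => bv F (Sum.inl i)) (fun i => bv F (Sum.inr i)) (Qplus 4 F) := by
  intro x
  simp only [P_bv, Sum.swap_inl, Sum.swap_inr]
  funext p
  rw [Finset.sum_apply]
  rcases p with i | i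
  · simp [bv, Pi.single_apply, ite_mul, Finset.sum_ite_eq]
  · simp [bv, Pi.single_apply, ite_mul, Finset.sum_ite_eq]

/-- The rows of the natural representation. -/
def rowsD4 : List ℕ := [0xa0d, 0xa000f, 0xb00000000000008, 0xa000011, 0xa000000000007, 0xb0000000004, 0xd0e00, 0xc00000000000900, 0xd001000, 0xd000000000600, 0xf00000000080000, 0xe110000, 0x708000000000000, 0x11000006000000, 0xf0000040000, 0x400090000000000, 0x100005000000, 0x4070000000000, 0xd00000200, 0xe00030000, 0x300000800000000, 0x1102000000, 0x3000600000000, 0x30400000000]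

/-- The centre of a root element. -/
def tabA (r : ℕ) : ℕ := dig 0x10101010202060605050505040404040404 8 r

/-- The direction of a root element. -/
def tabB (r : ℕ) : ℕ := dig 0x10207030605020703060703070302070306010207030605 8 r

/-- The sign of a root element. -/
def tabS (r : ℕ) : ℕ := dig 0x26e89b 1 r

/-- The code of a vector with sign. -/
def enc (p s : ℕ) : ℕ := Nat.add (Nat.mul (Nat.succ p) 2) s

/-- The dual index. -/
def dl (p : ℕ) : ℕ := Nat.mod (Nat.add p 4) 8

/-- The check of the shape of a root element. -/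
noncomputable def chkSg1 (T : Tbl) (r : ℕ) : Bool :=
  and (Nat.blt (tabA r) 8) <| and (Nat.blt (tabB r) 8) <| and (not (Nat.beq (tabB r) (tabA r))) <|
  and (not (Nat.beq (tabB r) (dl (tabA r)))) <| and (Nat.blt (tabS r) 2) <|
  and (Nat.beq (tabA (T.neg r)) (dl (tabA r))) <| and (Nat.beq (tabB (T.neg r)) (dl (tabB r))) <|
  and (Nat.beq (Nat.add (tabS (T.neg r)) (tabS r)) 1) <|
  allBelow 8 fun w =>
    Nat.beq (Tbl.cdF rowsD4 8 r w)
      (cond (Nat.beq w (dl (tabA r))) (enc (tabB r) (tabS r))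
        (cond (Nat.beq w (dl (tabB r))) (enc (tabA r) (Nat.sub 1 (tabS r))) 0))

/-- All root elements are of the shape. -/
noncomputable def chkSg (T : Tbl) : Bool := allBelow T.n (chkSg1 T)

/-- All pairs of coordinates come from roots. -/
noncomputable def chkPairs (T : Tbl) : Bool :=
  allBelow 8 fun p => allBelow 8 fun q =>
    or (Nat.beq q p) <| or (Nat.beq q (dl p)) <|
      Tbl.anyF (fun r => or (and (Nat.beq (tabA r) p) (Nat.beq (tabB r) q)) (and (Nat.beq (tabA r) q) (Nat.beq (tabB r) p))) (rangeF T.n)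

set_option maxRecDepth 100000 in
theorem repD4 : digD4.tbl.chkRep rowsD4 8 8 = true := by decide +kernel

set_option maxRecDepth 100000 in
theorem sgD4 : chkSg digD4.tbl = true := by decide +kernel

set_option maxRecDepth 100000 in
theorem pairsD4 : chkPairs digD4.tbl = true := by decide +kernel

lemma dl_lt (p : ℕ) : dl p < 8 := Nat.mod_lt _ (by norm_num)

/-- The coordinate of a number. -/
def ix (p : ℕ) : I4 := if h : p < 4 then Sum.inl ⟨p, h⟩ else Sum.inr ⟨(p - 4) % 4, Nat.mod_lt _ (by norm_num)⟩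

/-- The number of a coordinate. -/
def jx : I4 → ℕ
  | Sum.inl i => i.val
  | Sum.inr i => i.val + 4

lemma jx_lt (p : I4) : jx p < 8 := by
  rcases p with i | i <;> simp only [jx] <;> omega

lemma ix_jx (p : I4) : ix (jx p) = p := by
  rcases p with i | i
  · simp [ix, jx]
  · have h : ¬ (i.val + 4 < 4) := by omega
    have e : (⟨(i.val + 4 - 4) % 4, Nat.mod_lt _ (by norm_num)⟩ : Fin 4) = i := by
      apply Fin.ext
      simp only [Nat.add_sub_cancel]
      exact Nat.mod_eq_of_lt i.2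
    unfold ix jx
    rw [dif_neg h, e]

lemma jx_ix {p : ℕ} (hp : p < 8) : jx (ix p) = p := by
  unfold ix
  by_cases h : p < 4
  · simp [h, jx]
  · simp only [h, dif_neg, not_false_eq_true, jx]
    omega

lemma ix_dl {p : ℕ} (hp : p < 8) : ix (dl p) = (ix p).swap := by
  interval_cases p <;> rfl

lemma ix_inj {a b : ℕ} (ha : a < 8) (hb : b < 8) (h : ix a = ix b) : a = b := by
  rw [← jx_ix ha, ← jx_ix hb, h]

section Facts

variable {r : ℕ} (hr : r < digD4.tbl.n)
include hr

lemma sg_spec : tabA r < 8 ∧ tabB r < 8 ∧ tabB r ≠ tabA r ∧ tabB r ≠ dl (tabA r) ∧ tabS r < 2 ∧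
    tabA (digD4.tbl.neg r) = dl (tabA r) ∧ tabB (digD4.tbl.neg r) = dl (tabB r) ∧ tabS (digD4.tbl.neg r) + tabS r = 1 ∧
    ∀ w, w < 8 → Tbl.cdF rowsD4 8 r w = cond (Nat.beq w (dl (tabA r))) (enc (tabB r) (tabS r))
        (cond (Nat.beq w (dl (tabB r))) (enc (tabA r) (Nat.sub 1 (tabS r))) 0) := by
  have h := allBelow_spec sgD4 r hr
  unfold chkSg1 at h
  simp only [Bool.and_eq_true, Bool.not_eq_true'] at h
  obtain ⟨h1, h2, h3, h4, h5, h6, h7, h8, h9⟩ := h
  exact ⟨Nat.le_of_ble_eq_true h1, Nat.le_of_ble_eq_true h2, Nat.ne_of_beq_eq_false h3, Nat.ne_of_beq_eq_false h4,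
    Nat.le_of_ble_eq_true h5, Nat.eq_of_beq_eq_true h6, Nat.eq_of_beq_eq_true h7, Nat.eq_of_beq_eq_true h8,
    fun w hw => Nat.eq_of_beq_eq_true (allBelow_spec h9 w hw)⟩

end Facts

/-- The sign of a root element, in the field. -/
def sgnF (F : Type*) [Field F] (r : ℕ) : F := if tabS r = 1 then -1 else 1

lemma sgnF_sq (r : ℕ) : sgnF F r * sgnF F r = 1 := by
  unfold sgnF
  split_ifs <;> simp

lemma sgnF_ne (r : ℕ) : sgnF F r ≠ 0 := left_ne_zero_of_mul_eq_one (sgnF_sq r)

/-- The root elements in the orthogonal group. -/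
noncomputable def xt (r : ℕ) (t : F) : OG (Qplus 4 F) :=
  sg (Qplus 4 F) (bv F (ix (tabA r))) ((sgnF F r * t) • bv F (ix (tabB r)))

/-- The two pairs of a root. -/
lemma qp_of {A B : I4} (h1 : B ≠ A) (h2 : B ≠ A.swap) : QP (Qplus 4 F) (bv F A) (bv F B) (bv F A.swap) (bv F B.swap) where
  qa := Q_bv _
  qb := Q_bv _
  qa' := Q_bv _
  qb' := Q_bv _
  ab := by
    rw [P_bv, bv_apply, if_neg (Ne.symm h2)]
  ab' := by
    rw [P_bv, bv_apply, if_neg]
    intro h
    exact h1 (Sum.swap_leftInverse.injective h).symm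
  ba' := by
    rw [P_bv, bv_apply, if_neg]
    intro h
    exact h1 (Sum.swap_leftInverse.injective h)
  a'b' := by
    rw [P_bv, bv_apply, Sum.swap_swap, if_neg]
    intro h
    apply h2
    rw [h, Sum.swap_swap]
  aa' := by
    rw [P_bv, bv_apply, if_pos rfl]
  bb' := by
    rw [P_bv, bv_apply, if_pos rfl]

lemma vec_enc {b s : ℕ} (hs : s < 2) (w : Fin 8) :
    ((vecZ 8 (enc b s) w : ℤ) : F) = if w.val = b then (if s = 1 then -1 else 1) else 0 := by
  have h0 : enc b s ≠ 0 := by
    show Nat.add (Nat.mul (Nat.succ b) 2) s ≠ 0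
    simp only [Nat.add_eq, Nat.mul_eq, Nat.succ_eq_add_one]
    omega
  have h1 : enc b s / 2 - 1 = b := by
    show Nat.add (Nat.mul (Nat.succ b) 2) s / 2 - 1 = b
    simp only [Nat.add_eq, Nat.mul_eq, Nat.succ_eq_add_one]
    omega
  have h2 : enc b s % 2 = s := by
    show Nat.add (Nat.mul (Nat.succ b) 2) s % 2 = s
    simp only [Nat.add_eq, Nat.mul_eq, Nat.succ_eq_add_one]
    omega
  unfold vecZ sgnZ
  rw [if_neg h0, h1, h2]
  by_cases e : b = w.val
  · rw [if_pos e, if_pos e.symm]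
    split_ifs <;> simp
  · rw [if_neg e, if_neg (Ne.symm e)]
    simp

section Rep

variable {r : ℕ} (hr : r < digD4.tbl.n)
include hr

lemma qp_r : QP (Qplus 4 F) (bv F (ix (tabA r))) (bv F (ix (tabB r))) (bv F (ix (tabA r)).swap) (bv F (ix (tabB r)).swap) := by
  obtain ⟨h1, h2, h3, h4, -⟩ := sg_spec hr
  refine qp_of (fun h => h3 (ix_inj h2 h1 h)) (fun h => h4 ?_)
  rw [← ix_dl h1] at h
  refine ix_inj h2 ?_ h
  unfold dl
  exact Nat.mod_lt _ (by norm_num)

/-- The entries of the matrix of a root. -/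
lemma repK_mulVec (u : Fin 8 → F) (w : Fin 8) :
    (repK F rowsD4 8 8 r).mulVec u w =
      (if w.val = tabB r then sgnF F r else 0) * u ⟨dl (tabA r), Nat.mod_lt _ (by norm_num)⟩ +
      (if w.val = tabA r then - sgnF F r else 0) * u ⟨dl (tabB r), Nat.mod_lt _ (by norm_num)⟩ := by
  obtain ⟨h1, h2, h3, h4, h5, -, -, -, h9⟩ := sg_spec hr
  have hne : (⟨dl (tabA r), Nat.mod_lt _ (by norm_num)⟩ : Fin 8) ≠ ⟨dl (tabB r), Nat.mod_lt _ (by norm_num)⟩ := by
    intro h
    have h' : (tabA r + 4) % 8 = (tabB r + 4) % 8 := congrArg Fin.val h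
    apply h3
    omega
  have hval : ∀ j : Fin 8, repK F rowsD4 8 8 r w j = ((vecZ 8 (Tbl.cdF rowsD4 8 r j.val) w : ℤ) : F) := fun j => rfl
  show ∑ j, repK F rowsD4 8 8 r w j * u j = _
  rw [Finset.sum_eq_add _ _ hne (fun j _ hj => ?_) (fun h => absurd (Finset.mem_univ _) h) (fun h => absurd (Finset.mem_univ _) h)]
  · congr 1
    · rw [hval]
      change ((vecZ 8 (Tbl.cdF rowsD4 8 r (dl (tabA r))) w : ℤ) : F) * _ = _
      rw [h9 _ (dl_lt _)]
      simp only [Nat.beq_refl, cond_true]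
      rw [vec_enc h5]
      unfold sgnF
      rfl
    · rw [hval]
      change ((vecZ 8 (Tbl.cdF rowsD4 8 r (dl (tabB r))) w : ℤ) : F) * _ = _
      rw [h9 _ (dl_lt _)]
      have e1 : Nat.beq (dl (tabB r)) (dl (tabA r)) = false := by
        rw [Bool.eq_false_iff]
        intro h
        exact hne (Fin.ext (Nat.eq_of_beq_eq_true h).symm)
      simp only [e1, Nat.beq_refl, cond_true, cond_false]
      rw [vec_enc (by show 1 - tabS r < 2; omega)]
      unfold sgnF
      congr 1
      by_cases h6 : tabS r = 1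
      · rw [if_pos h6, h6]
        simp
      · have h7 : tabS r = 0 := by omega
        rw [if_neg h6, h7]
        simp
  · have e1 : Nat.beq j.val (dl (tabA r)) = false := by
      rw [Bool.eq_false_iff]
      intro h
      exact hj.1 (Fin.ext (Nat.eq_of_beq_eq_true h))
    have e2 : Nat.beq j.val (dl (tabB r)) = false := by
      rw [Bool.eq_false_iff]
      intro h
      exact hj.2 (Fin.ext (Nat.eq_of_beq_eq_true h))
    rw [hval, h9 _ j.2, e1, e2]
    simp [vecZ]

/-- The representation and the Siegel transformations. -/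
lemma xt_rep (t : F) (v : I4 → F) (w : Fin 8) :
    (((repY rowsD4 8 8 r t : GL (Fin 8) F) : Matrix (Fin 8) (Fin 8) F)).mulVec (fun w => v (ix w.val)) w = ((xt r t).1 v) (ix w.val) := by
  obtain ⟨h1, h2, h3, h4, -⟩ := sg_spec hr
  have hQ := qp_r (F := F) hr
  rw [repY_coe repD4 hr t, one_add_act, Pi.add_apply, Pi.smul_apply, smul_eq_mul, repK_mulVec hr]
  unfold xt
  rw [sg_dir hQ.qb hQ.qa hQ.ab, P_bv, P_bv, ← ix_dl h1, ← ix_dl h2]
  simp only [Pi.sub_apply, Pi.add_apply, Pi.smul_apply, smul_eq_mul, bv_apply]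
  have e1 : ix w.val = ix (tabB r) ↔ w.val = tabB r := ⟨fun h => ix_inj w.2 h2 h, fun h => by rw [h]⟩
  have e2 : ix w.val = ix (tabA r) ↔ w.val = tabA r := ⟨fun h => ix_inj w.2 h1 h, fun h => by rw [h]⟩
  simp only [e1, e2]
  split_ifs <;> ring

end Rep

/-- A matrix and an element of the orthogonal group act in the same way. -/
def Rel (x : OG (Qplus 4 F)) (A : GL (Fin 8) F) : Prop :=
  ∀ v : I4 → F, ((A : GL (Fin 8) F) : Matrix (Fin 8) (Fin 8) F).mulVec (fun w => v (ix w.val)) = fun w => (x.1 v) (ix w.val)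

lemma Rel.mul {x y : OG (Qplus 4 F)} {A B : GL (Fin 8) F} (h1 : Rel x A) (h2 : Rel y B) : Rel (x * y) (A * B) := by
  intro v
  rw [Units.val_mul, ← Matrix.mulVec_mulVec, h2 v, h1 (y.1 v)]
  rfl

lemma Rel.inv {x : OG (Qplus 4 F)} {A : GL (Fin 8) F} (h : Rel x A) : Rel x⁻¹ A⁻¹ := by
  intro v
  have e := h (x⁻¹.1 v)
  simp only [inv_apply_self] at e
  rw [← e, Matrix.mulVec_mulVec, Units.inv_mul, Matrix.one_mulVec]

lemma Rel.one : Rel (1 : OG (Qplus 4 F)) (1 : GL (Fin 8) F) := by
  intro v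
  rw [Units.val_one, Matrix.one_mulVec]
  rfl

/-- Words in the root elements and in the matrices. -/
lemma rel_word (w : FreeGroup (Fin chevD4.nroots × F)) :
    Rel (FreeGroup.lift (fun p : Fin chevD4.nroots × F => xt p.1.1 p.2) w)
      (FreeGroup.lift (fun p : Fin chevD4.nroots × F => repY rowsD4 8 8 p.1.1 p.2) w) := by
  induction w using FreeGroup.induction_on with
  | C1 =>
    rw [map_one, map_one]
    exact Rel.one
  | of x =>
    rw [FreeGroup.lift_apply_of, FreeGroup.lift_apply_of]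
    intro v
    funext u
    exact xt_rep (good3D4.lt_n x.1.2) x.2 v u
  | inv_of x ih =>
    rw [map_inv, map_inv]
    exact ih.inv
  | mul a b ha hb =>
    rw [map_mul, map_mul]
    exact ha.mul hb

/-- An element acting trivially is the identity. -/
lemma Rel.eq_one {x : OG (Qplus 4 F)} (h : Rel x 1) : x = 1 := by
  apply OG_ext
  intro v
  have e := h v
  rw [Units.val_one, Matrix.one_mulVec] at e
  funext p
  have := congrFun e ⟨jx p, jx_lt p⟩
  simp only [ix_jx] at this
  exact this.symm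

/-- The relations (R1), (R2). -/
lemma lift_AB {g : FreeGroup (Fin chevD4.nroots × F)} (hg : g ∈ chevD4.steinbergRelsAB F) :
    FreeGroup.lift (fun p : Fin chevD4.nroots × F => xt p.1.1 p.2) g = 1 := by
  apply Rel.eq_one
  obtain ⟨ρ, hρ⟩ := exists_rep good3D4 repD4 F
  have e : (FreeGroup.lift (fun p : Fin chevD4.nroots × F => repY rowsD4 8 8 p.1.1 p.2) : _ →* GL (Fin 8) F) =
      ρ.comp (PresentedGroup.mk (chevD4.steinbergRelsAB F)) := by
    refine FreeGroup.ext_hom _ _ fun x => ?_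
    rw [FreeGroup.lift_apply_of, MonoidHom.comp_apply]
    exact (hρ x).symm
  have h1 := rel_word (F := F) g
  rw [e, MonoidHom.comp_apply, PresentedGroup.one_of_mem hg, map_one] at h1
  exact h1

end Cfsg.Agent.Lib.PO
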