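/-
The isomorphism of the Chevalley group of type D₄ with PΩ₈⁺.
-/
import Cfsg.Agent.Lib.PO.D4

set_option autoImplicit false
set_option linter.unusedSectionVars false

namespace Cfsg.Agent.Lib.PO

open Cfsg Cfsg.Lie Cfsg.Agent.Lib.Chev Cfsg.Agent.Lib.St
open Cfsg.Agent.Lib.Classical.Witt Cfsg.Agent.Lib.Classical.Abs Cfsg.Agent.Lib.Classical.Orth
open Cfsg.Agent.Lib.Chev.Tbl (beq_false beq_self blt_true blt_false)
open scoped commutatorElement

local notation "P" => QuadraticMap.polarBilin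

variable {F : Type*} [Field F]

/-- The eigenvalue of `h̄` on a coordinate vector. -/
noncomputable def kk (F : Type*) [Field F] (A B : I4) (t : F) (p : I4) : F :=
  open Classical in if p = A ∨ p = B then t else if p = A.swap ∨ p = B.swap then t⁻¹ else 1

section Root

variable {r : ℕ} (hr : r < digD4.tbl.n)
include hr

lemma sgnF_neg : sgnF F (digD4.tbl.neg r) = - sgnF F r := by
  obtain ⟨-, -, -, -, h5, -, -, h8, -⟩ := sg_spec hr
  unfold sgnF
  by_cases h : tabS r = 1
  · have h' : tabS (digD4.tbl.neg r) = 0 := by omega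
    simp [h, h']
  · have h1 : tabS r = 0 := by omega
    have h' : tabS (digD4.tbl.neg r) = 1 := by omega
    simp [h1, h']

lemma xt_neg (t : F) : xt (digD4.tbl.neg r) (-t⁻¹) =
    sg (Qplus 4 F) (bv F (ix (tabA r)).swap) ((sgnF F r * t)⁻¹ • bv F (ix (tabB r)).swap) := by
  obtain ⟨h1, h2, -, -, -, h6, h7, -, -⟩ := sg_spec hr
  unfold xt
  rw [h6, h7, ix_dl h1, ix_dl h2, sgnF_neg hr]
  congr 2
  have e : (sgnF F r)⁻¹ = sgnF F r := inv_eq_of_mul_eq_one_right (sgnF_sq r)
  rw [mul_inv, e]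
  ring

/-- The element `h̄` in the orthogonal group. -/
lemma hb_eq (t : F) :
    xt r t * xt (digD4.tbl.neg r) (-t⁻¹) * xt r t * (xt r (-1) * xt (digD4.tbl.neg r) (-(-1 : F)⁻¹) * xt r (-1)) =
      HH (Qplus 4 F) (bv F (ix (tabA r))) (bv F (ix (tabB r))) (bv F (ix (tabA r)).swap) (bv F (ix (tabB r)).swap)
        (sgnF F r * t) (sgnF F r * (-1)) := by
  rw [xt_neg hr, xt_neg hr]
  rfl

/-- The action of `h̄` on coordinate vectors. -/
lemma hb_bv {t : F} (ht : t ≠ 0) (p : I4) :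
    (HH (Qplus 4 F) (bv F (ix (tabA r))) (bv F (ix (tabB r))) (bv F (ix (tabA r)).swap) (bv F (ix (tabB r)).swap)
        (sgnF F r * t) (sgnF F r * (-1))).1 (bv F p) = kk F (ix (tabA r)) (ix (tabB r)) t p • bv F p := by
  have hQ := qp_r (F := F) hr
  set A := ix (tabA r) with hA
  set B := ix (tabB r) with hB
  have hσ := sgnF_ne (F := F) r
  have h1 : sgnF F r * t ≠ 0 := mul_ne_zero hσ ht
  have h2 : sgnF F r * (-1) ≠ 0 := mul_ne_zero hσ (neg_ne_zero.2 one_ne_zero)
  have hκ : -(sgnF F r * (-1))⁻¹ * (sgnF F r * t) = t := by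
    field_simp
  unfold kk
  by_cases c1 : p = A ∨ p = B
  · rw [if_pos c1]
    rcases c1 with rfl | rfl
    · rw [hQ.HH_a h1 h2, hκ]
    · rw [hQ.HH_b h1 h2, hκ]
  rw [if_neg c1]
  by_cases c2 : p = A.swap ∨ p = B.swap
  · rw [if_pos c2]
    rcases c2 with rfl | rfl
    · rw [hQ.HH_a' h1 h2, hκ]
    · rw [hQ.HH_b' h1 h2, hκ]
  rw [if_neg c2, one_smul]
  simp only [not_or] at c1 c2
  refine hQ.HH_fix ?_ ?_ ?_ ?_
  · rw [P_bv, bv_apply, if_neg (Ne.symm c2.1)]
  · rw [P_bv, bv_apply, if_neg (Ne.symm c2.2)]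
  · rw [P_bv, bv_apply, Sum.swap_swap, if_neg (Ne.symm c1.1)]
  · rw [P_bv, bv_apply, Sum.swap_swap, if_neg (Ne.symm c1.2)]

/-- The relation (R3). -/
lemma hb_mul {t₁ t₂ : F} (h₁ : t₁ ≠ 0) (h₂ : t₂ ≠ 0) :
    HH (Qplus 4 F) (bv F (ix (tabA r))) (bv F (ix (tabB r))) (bv F (ix (tabA r)).swap) (bv F (ix (tabB r)).swap)
        (sgnF F r * t₁) (sgnF F r * (-1)) *
      HH (Qplus 4 F) (bv F (ix (tabA r))) (bv F (ix (tabB r))) (bv F (ix (tabA r)).swap) (bv F (ix (tabB r)).swap)
        (sgnF F r * t₂) (sgnF F r * (-1)) =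
    HH (Qplus 4 F) (bv F (ix (tabA r))) (bv F (ix (tabB r))) (bv F (ix (tabA r)).swap) (bv F (ix (tabB r)).swap)
        (sgnF F r * (t₁ * t₂)) (sgnF F r * (-1)) := by
  have key : ∀ p : I4, (HH (Qplus 4 F) (bv F (ix (tabA r))) (bv F (ix (tabB r))) (bv F (ix (tabA r)).swap) (bv F (ix (tabB r)).swap)
        (sgnF F r * t₁) (sgnF F r * (-1)) *
      HH (Qplus 4 F) (bv F (ix (tabA r))) (bv F (ix (tabB r))) (bv F (ix (tabA r)).swap) (bv F (ix (tabB r)).swap)
        (sgnF F r * t₂) (sgnF F r * (-1))).1 (bv F p) =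
    (HH (Qplus 4 F) (bv F (ix (tabA r))) (bv F (ix (tabB r))) (bv F (ix (tabA r)).swap) (bv F (ix (tabB r)).swap)
        (sgnF F r * (t₁ * t₂)) (sgnF F r * (-1))).1 (bv F p) := by
    intro p
    rw [mul_apply', hb_bv hr h₂, map_smul, hb_bv hr h₁, hb_bv hr (mul_ne_zero h₁ h₂), smul_smul]
    congr 1
    unfold kk
    split_ifs
    · ring
    · rw [mul_inv]
      ring
    · ring
  exact ext_of_sp sp4 fun k => ⟨key _, key _⟩

end Root

/-- The generators. -/
noncomputable def genD4 (F : Type*) [Field F] : Fin chevD4.nroots × F → OG (Qplus 4 F) := fun p => xt p.1.1 p.2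

lemma lift_X {r : ℕ} (hr : r < chevD4.nroots) (t : F) : FreeGroup.lift (genD4 F) (chevD4.stX r t) = xt r t := by
  unfold ChevalleyDatum.stX
  rw [dif_pos hr, FreeGroup.lift_apply_of]
  rfl

lemma lift_H {r : ℕ} (hr : r < chevD4.nroots) (t : F) : FreeGroup.lift (genD4 F) (chevD4.stH r t) =
    xt r t * xt (digD4.tbl.neg r) (-t⁻¹) * xt r t * (xt r (-1) * xt (digD4.tbl.neg r) (-(-1 : F)⁻¹) * xt r (-1)) := by
  have hn : chevD4.neg r < chevD4.nroots := good3D4.neg_lt hr
  have e := good3D4.correct.neg_eq r hr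
  unfold ChevalleyDatum.stH ChevalleyDatum.stWord ChevalleyDatum.hWord ChevalleyDatum.nWord
  simp only [List.cons_append, List.nil_append, List.map_cons, List.map_nil, List.prod_cons, List.prod_nil, mul_one, map_mul,
    lift_X hr, lift_X hn, mul_assoc, e]

/-- The relations. -/
lemma rels_D4 : ∀ g ∈ chevD4.steinbergRels F, FreeGroup.lift (genD4 F) g = 1 := by
  rintro g (h | ⟨r, t₁, t₂, hr, h1, h2, rfl⟩)
  · exact lift_AB h
  · have hr' := good3D4.lt_n hr
    simp only [map_mul, map_inv]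
    rw [mul_inv_eq_one, lift_H hr, lift_H hr, lift_H hr, hb_eq hr', hb_eq hr', hb_eq hr']
    exact hb_mul hr' h1 h2

/-- The homomorphism from Steinberg's group. -/
noncomputable def psiD4 (F : Type*) [Field F] : chevD4.SteinbergGroup F →* OG (Qplus 4 F) :=
  PresentedGroup.toGroup rels_D4

lemma xt_mem {r : ℕ} (hr : r < digD4.tbl.n) (t : F) : xt r t ∈ (psiD4 F).range := by
  refine ⟨PresentedGroup.mk _ (chevD4.stX r t), ?_⟩
  exact lift_X (good3D4.n_lt hr) t

lemma anyF_ex {α : Type*} {f : α → Bool} {l : List α} (h : Tbl.anyF f l = true) : ∃ a ∈ l, f a = true := by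
  induction l with
  | nil => simp [Tbl.anyF] at h
  | cons a l ih =>
    have h' : (f a || Tbl.anyF f l) = true := h
    rw [Bool.or_eq_true] at h'
    rcases h' with h1 | h1
    · exact ⟨a, by simp, h1⟩
    · obtain ⟨b, hb, hf⟩ := ih h1
      exact ⟨b, List.mem_cons_of_mem _ hb, hf⟩

/-- All the transformations with a centre and a direction in coordinate vectors are root elements. -/
lemma sg_mem_range {p q : I4} (h1 : q ≠ p) (h2 : q ≠ p.swap) (c : F) :
    sg (Qplus 4 F) (bv F p) (c • bv F q) ∈ (psiD4 F).range := by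
  have hp := jx_lt p
  have hq := jx_lt q
  have h := allBelow_spec (allBelow_spec pairsD4 _ hp) _ hq
  rw [Bool.or_eq_true, Bool.or_eq_true] at h
  rcases h with h | h | h
  · exfalso
    apply h1
    rw [← ix_jx q, ← ix_jx p, Nat.eq_of_beq_eq_true h]
  · exfalso
    apply h2
    rw [← ix_jx q, Nat.eq_of_beq_eq_true h, ix_dl hp, ix_jx]
  · obtain ⟨r, hr, h3⟩ := anyF_ex h
    rw [rangeF_eq, List.mem_range] at hr
    have hσ := sgnF_sq (F := F) r
    rw [Bool.or_eq_true, Bool.and_eq_true, Bool.and_eq_true] at h3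
    rcases h3 with ⟨a1, a2⟩ | ⟨a1, a2⟩
    · have := xt_mem hr (sgnF F r * c)
      unfold xt at this
      rw [Nat.eq_of_beq_eq_true a1, Nat.eq_of_beq_eq_true a2, ix_jx, ix_jx, ← mul_assoc, hσ, one_mul] at this
      exact this
    · have := xt_mem hr (sgnF F r * (-c))
      unfold xt at this
      rw [Nat.eq_of_beq_eq_true a1, Nat.eq_of_beq_eq_true a2, ix_jx, ix_jx, ← mul_assoc, hσ, one_mul] at this
      have hpq : P (Qplus 4 F) (bv F p) (bv F q) = 0 := by
        rw [P_bv, bv_apply, if_neg (Ne.symm h2)]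
      rw [sg_swap (Q_bv p) (Q_bv q) hpq, neg_neg] at this
      exact this

/-- The image of Steinberg's group is the commutator subgroup of the orthogonal group. -/
theorem range_psiD4 : (psiD4 F).range = commutator (OG (Qplus 4 F)) := by
  apply le_antisymm
  · have hp : commutator (chevD4.SteinbergGroup F) = ⊤ :=
      Sys.perf_A (canSys (K := F) good3D4 (chevD4.steinbergRels F) Set.subset_union_left (lift_rels good3D4)) stHypD4 digD4_perfA
    rintro _ ⟨γ, rfl⟩
    have h1 : γ ∈ commutator (chevD4.SteinbergGroup F) := by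
      rw [hp]
      exact Subgroup.mem_top _
    have h2 : (commutator (chevD4.SteinbergGroup F)).map (psiD4 F) ≤ commutator (OG (Qplus 4 F)) := by
      rw [commutator_def, Subgroup.map_commutator, commutator_def]
      exact Subgroup.commutator_mono le_top le_top
    exact h2 ⟨γ, h1, rfl⟩
  · refine (hs4.comm_le_plus sp4 (by norm_num)).trans ((hs4.EE_le_EA (i := 0) (j := 1) (by decide)).trans ?_)
    refine hs4.EA_le_of (Z := {0}) (fun x => ?_) (fun i z hz _ => ?_) (fun i z hz _ => ?_) (fun i k hk c => ?_) (fun i k hk c => ?_)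
      (fun i k hk c => ?_) (fun i k hk c => ?_)
    · rw [Set.mem_singleton_iff, sub_eq_zero]
      exact sp4 x
    · rw [Set.mem_singleton_iff.1 hz, sg_zero]
      exact one_mem _
    · rw [Set.mem_singleton_iff.1 hz, sg_zero]
      exact one_mem _
    · exact sg_mem_range (fun h => hk (Sum.inl_injective h)) (by simp) c
    · exact sg_mem_range (by simp) (fun h => hk (Sum.inr_injective h)) c
    · exact sg_mem_range (by simp) (fun h => hk (Sum.inl_injective h)) c
    · exact sg_mem_range (fun h => hk (Sum.inr_injective h)) (by simp) c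

/-- The action of a root element. -/
lemma sg_bv_apply {p q : I4} (h : q ≠ p.swap) (c : F) (x : I4 → F) :
    (sg (Qplus 4 F) (bv F p) (c • bv F q)).1 x = x + x p.swap • (c • bv F q) - (c * x q.swap) • bv F p := by
  have hw : P (Qplus 4 F) (bv F p) (c • bv F q) = 0 := by
    rw [P_bv, Pi.smul_apply, bv_apply, if_neg (Ne.symm h), smul_zero]
  have hq : Qplus 4 F (c • bv F q) = 0 := by
    rw [QuadraticMap.map_smul, Q_bv]
    simp
  rw [sg_apply (Q_bv p) hw, P_bv, hq, zero_mul, zero_smul, sub_zero, map_smul, LinearMap.smul_apply, P_bv, smul_eq_mul]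

/-- Two root elements which do not commute. -/
lemma xt_not_comm : (xt 0 (1 : F)) * xt 19 1 ≠ xt 19 1 * xt 0 (1 : F) := by
  intro h
  have e0 : xt 0 (1 : F) = sg (Qplus 4 F) (bv F (Sum.inr 0)) ((-1 : F) • bv F (Sum.inr 1)) := by
    have h1 : tabA 0 = 4 := by decide +kernel
    have h2 : tabB 0 = 5 := by decide +kernel
    have h3 : tabS 0 = 1 := by decide +kernel
    unfold xt sgnF
    rw [h1, h2, h3]
    have e1 : ix 4 = Sum.inr 0 := rfl
    have e2 : ix 5 = Sum.inr 1 := rfl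
    rw [e1, e2]
    simp
  have e19 : xt 19 (1 : F) = sg (Qplus 4 F) (bv F (Sum.inl 0)) ((1 : F) • bv F (Sum.inr 2)) := by
    have h1 : tabA 19 = 0 := by decide +kernel
    have h2 : tabB 19 = 6 := by decide +kernel
    have h3 : tabS 19 = 0 := by decide +kernel
    unfold xt sgnF
    rw [h1, h2, h3]
    have e1 : ix 0 = Sum.inl 0 := rfl
    have e2 : ix 6 = Sum.inr 2 := rfl
    rw [e1, e2]
    simp
  have h1 := congrArg (fun g : OG (Qplus 4 F) => (g.1 (bv F (Sum.inl 2))) (Sum.inr 1)) h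
  simp only [mul_apply', e0, e19] at h1
  rw [sg_bv_apply (by simp), sg_bv_apply (by simp), sg_bv_apply (by simp), sg_bv_apply (by simp)] at h1
  simp [bv, Pi.single_apply, Sum.swap] at h1

/-- Root elements are in the image. -/
lemma psiD4_mk {r : ℕ} (hr : r < chevD4.nroots) (t : F) : psiD4 F (PresentedGroup.mk _ (chevD4.stX r t)) = xt r t :=
  lift_X hr t

/-- The Chevalley group of type D₄ is PΩ₈⁺. -/
theorem d4_iso (F : Type*) [Field F] : Nonempty (↥(chevD4.group F) ≃* Cfsg.POmega F (Cfsg.quadFormPlus 4 F)) := by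
  rw [← Cfsg.Agent.Lib.Known3.OmegaCalc.coe_Qplus]
  set Q := Qplus 4 F with hQ
  have hmem : ∀ γ, (toOG Q).symm (psiD4 F γ) ∈ Cfsg.Omega F (⇑Q) := by
    intro γ
    rw [mem_Omega_iff, MulEquiv.apply_symm_apply, ← range_psiD4]
    exact ⟨γ, rfl⟩
  set ρ : chevD4.SteinbergGroup F →* ↥(Cfsg.Omega F (⇑Q)) :=
    MonoidHom.codRestrict ((toOG Q).symm.toMonoidHom.comp (psiD4 F)) _ hmem with hρ
  have hs : Function.Surjective ρ := by
    rintro ⟨x, hx⟩
    have h1 := (mem_Omega_iff Q x).1 hx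
    rw [← range_psiD4] at h1
    obtain ⟨γ, hγ⟩ := h1
    refine ⟨γ, Subtype.ext ?_⟩
    show (toOG Q).symm (psiD4 F γ) = x
    rw [hγ, MulEquiv.symm_apply_apply]
  have hne : ρ (PresentedGroup.mk _ (chevD4.stX 0 1)) * ρ (PresentedGroup.mk _ (chevD4.stX 19 1)) ≠
      ρ (PresentedGroup.mk _ (chevD4.stX 19 1)) * ρ (PresentedGroup.mk _ (chevD4.stX 0 1)) := by
    intro h
    apply xt_not_comm (F := F)
    have h1 := congrArg (fun x : ↥(Cfsg.Omega F (⇑Q)) => toOG Q x.1) h
    have e : ∀ r : ℕ, r < digD4.tbl.n → toOG Q (ρ (PresentedGroup.mk _ (chevD4.stX r 1))).1 = xt r 1 := fun r hr => by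
      show toOG Q ((toOG Q).symm (psiD4 F (PresentedGroup.mk _ (chevD4.stX r 1)))) = _
      rw [MulEquiv.apply_symm_apply, psiD4_mk (good3D4.n_lt hr)]
    have n0 : 0 < digD4.tbl.n := by decide +kernel
    have n19 : 19 < digD4.tbl.n := by decide +kernel
    simp only [Subgroup.coe_mul, map_mul, e _ n0, e _ n19] at h1
    exact h1
  exact iso_of_surj good3D4 stHypD4 (good3D4.perfect_of_A digD4_perfA) ρ hs hne

end Cfsg.Agent.Lib.PO
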